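import Cfsg.Agent.H7.PA9

/-! Groups generated by transvections in dimension four: the calculus of flags. -/

set_option autoImplicit false
set_option linter.unusedSectionVars false
set_option linter.unusedVariables false
set_option linter.unnecessarySimpa false
set_option linter.style.haveILetI false
set_option linter.unusedSimpArgs false

namespace Cfsg.Agent.H4.TV

open Cfsg.Geo Matrix
open Cfsg.Agent.H7.PA (up lo)
open scoped MatrixGroups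

variable {F : Type*} [Field F]

abbrev V4 (F : Type*) := Fin 4 → F

abbrev M4 (F : Type*) := Matrix (Fin 4) (Fin 4) F

abbrev GL4 (F : Type*) [Field F] := GL (Fin 4) F

/-- rank one matrices -/
def vv (v φ : V4 F) : M4 F := vecMulVec v φ

@[simp] theorem vv_apply (v φ : V4 F) (i j : Fin 4) : vv v φ i j = v i * φ j := rfl

theorem vv_smul (c : F) (v φ : V4 F) : vv v (c • φ) = c • vv v φ := vecMulVec_smul _ _ _

theorem smul_vv (c : F) (v φ : V4 F) : vv (c • v) φ = c • vv v φ := smul_vecMulVec _ _ _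

theorem vv_add (v φ ψ : V4 F) : vv v (φ + ψ) = vv v φ + vv v ψ := vecMulVec_add _ _ _

theorem add_vv (v w φ : V4 F) : vv (v + w) φ = vv v φ + vv w φ := add_vecMulVec _ _ _

theorem vv_sub (v φ ψ : V4 F) : vv v (φ - ψ) = vv v φ - vv v ψ := vecMulVec_sub _ _ _

theorem sub_vv (v w φ : V4 F) : vv (v - w) φ = vv v φ - vv w φ := sub_vecMulVec _ _ _

theorem vv_eq_zero {v φ : V4 F} : vv v φ = 0 ↔ v = 0 ∨ φ = 0 := vecMulVec_eq_zero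

@[simp] theorem vv_zero (v : V4 F) : vv v 0 = 0 := vv_eq_zero.2 (Or.inr rfl)

@[simp] theorem zero_vv (v : V4 F) : vv 0 v = 0 := vv_eq_zero.2 (Or.inl rfl)

theorem vv_mul_vv (v φ w ψ : V4 F) : vv v φ * vv w ψ = (φ ⬝ᵥ w) • vv v ψ := by
  rw [vv, vv, vecMulVec_mul_vecMulVec, vecMulVec_smul, vv]

theorem vv_mulVec (v φ w : V4 F) : vv v φ *ᵥ w = (φ ⬝ᵥ w) • v := by
  rw [vv, vecMulVec_mulVec]; ext; simp [mul_comm]

theorem vecMul_vv (ψ v φ : V4 F) : ψ ᵥ* vv v φ = (ψ ⬝ᵥ v) • φ := vecMul_vecMulVec _ _ _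

theorem trace_vv (v φ : V4 F) : (vv v φ).trace = φ ⬝ᵥ v := by
  rw [vv, trace_vecMulVec, dotProduct_comm]

theorem mul_vv (A : M4 F) (v φ : V4 F) : A * vv v φ = vv (A *ᵥ v) φ := mul_vecMulVec _ _ _

theorem vv_mul (B : M4 F) (v φ : V4 F) : vv v φ * B = vv v (φ ᵥ* B) := vecMulVec_mul _ _ _

theorem conj_vv (A B : M4 F) (v φ : V4 F) : A * vv v φ * B = vv (A *ᵥ v) (φ ᵥ* B) := by
  rw [mul_vv, vv_mul]

lemma vv_neg (v φ : V4 F) : vv v (-φ) = -vv v φ := by ext; simp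

lemma neg_vv (v φ : V4 F) : vv (-v) φ = -vv v φ := by ext; simp

lemma dot4 (u v : V4 F) : u ⬝ᵥ v = u 0 * v 0 + u 1 * v 1 + u 2 * v 2 + u 3 * v 3 := by
  simp [dotProduct, Fin.sum_univ_four]

lemma ext4 {u v : V4 F} (h0 : u 0 = v 0) (h1 : u 1 = v 1) (h2 : u 2 = v 2) (h3 : u 3 = v 3) :
    u = v := by
  ext i; fin_cases i <;> assumption

lemma ne_of_dot {φ v : V4 F} (h : φ ⬝ᵥ v ≠ 0) : φ ≠ 0 ∧ v ≠ 0 :=
  ⟨by rintro rfl; simp at h, by rintro rfl; simp at h⟩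

lemma exists_dot {φ : V4 F} (h : φ ≠ 0) : ∃ x, φ ⬝ᵥ x = 1 := by
  obtain ⟨i, hi⟩ := Function.ne_iff.1 h
  exact ⟨Pi.single i (φ i)⁻¹, by simpa using mul_inv_cancel₀ hi⟩

lemma ext_dot {φ ψ : V4 F} (h : ∀ x, φ ⬝ᵥ x = ψ ⬝ᵥ x) : φ = ψ :=
  funext fun i => by simpa using h (Pi.single i 1)

lemma ext_mulVec {A B : M4 F} (h : ∀ x, A *ᵥ x = B *ᵥ x) : A = B := by
  ext i j
  simpa using congrFun (h (Pi.single j 1)) i

/-- separation -/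
lemma sep {K : Submodule F (V4 F)} {φ : V4 F} (h : φ ∉ K) :
    ∃ x, (∀ α ∈ K, α ⬝ᵥ x = 0) ∧ φ ⬝ᵥ x = 1 := by
  obtain ⟨f, h2, h1⟩ := H6.exists_dual_one h
  have e : ∀ α, α ⬝ᵥ (fun j => f (Pi.single j 1)) = f α := fun α => by
    rw [f.pi_apply_eq_sum_univ α, dotProduct]
    refine Finset.sum_congr rfl fun j _ => ?_
    rw [smul_eq_mul, show (fun l => if j = l then 1 else 0 : V4 F) = Pi.single j 1 from
      funext fun l => by simp [Pi.single_apply, eq_comm]]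
  exact ⟨_, fun α hα => (e α).trans (h2 α hα), (e φ).trans h1⟩

lemma tv_mulVec (v φ w : V4 F) : (1 + vv v φ) *ᵥ w = w + (φ ⬝ᵥ w) • v := by
  rw [add_mulVec, one_mulVec, vv_mulVec]

lemma vecMul_tv (ψ v φ : V4 F) : ψ ᵥ* (1 + vv v φ) = ψ + (ψ ⬝ᵥ v) • φ := by
  rw [vecMul_add, vecMul_one, vecMul_vv]

lemma tv_mul_tv (v φ w ψ : V4 F) :
    (1 + vv v φ) * (1 + vv w ψ) = 1 + vv v φ + vv w ψ + (φ ⬝ᵥ w) • vv v ψ := by
  rw [mul_add, mul_one, add_mul, one_mul, vv_mul_vv, add_assoc, add_assoc, add_assoc]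

/-- a transvection -/
def tvU (v φ : V4 F) (h : φ ⬝ᵥ v = 0) : GL4 F :=
  ⟨1 + vv v φ, 1 + vv v (-φ), by rw [tv_mul_tv, h, vv_neg]; simp,
    by rw [tv_mul_tv, neg_dotProduct, h, vv_neg]; simp⟩

lemma tvU_val (v φ : V4 F) (h : φ ⬝ᵥ v = 0) : (tvU v φ h : M4 F) = 1 + vv v φ := rfl

lemma tvU_inv (v φ : V4 F) (h : φ ⬝ᵥ v = 0) : (((tvU v φ h)⁻¹ : GL4 F) : M4 F) = 1 + vv v (-φ) := rfl

/-- `P` contains the transvection with centre `v` and axis `φ` -/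
def HT (P : Subgroup (GL4 F)) (v φ : V4 F) : Prop :=
  φ ⬝ᵥ v = 0 ∧ ∃ g ∈ P, (g : M4 F) = 1 + vv v φ

variable {P Q : Subgroup (GL4 F)} {u v w φ ψ χ : V4 F}

lemma HT.mem (h : HT P v φ) : tvU v φ h.1 ∈ P := by
  obtain ⟨h, g, hg, e⟩ := h
  rwa [show tvU v φ h = g from Units.ext e.symm]

lemma HT.congr (h : HT P v φ) (e : vv v φ = vv w ψ) : HT P w ψ :=
  ⟨by rw [← trace_vv, ← e, trace_vv, h.1], _, h.mem, e ▸ rfl⟩

lemma ht_zero (v : V4 F) : HT P v 0 := ⟨by simp, 1, P.one_mem, by simp⟩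

lemma ht_zero' (φ : V4 F) : HT P 0 φ := (ht_zero 0).congr (by simp)

lemma ht_smul {c : F} : HT P (c • v) φ ↔ HT P v (c • φ) :=
  ⟨fun h => h.congr (by rw [vv_smul, smul_vv]), fun h => h.congr (by rw [vv_smul, smul_vv])⟩

lemma HT.resc (h : HT P v φ) {c : F} (hc : c ≠ 0) : HT P (c⁻¹ • v) (c • φ) :=
  h.congr (by rw [vv_smul, smul_vv, smul_smul, mul_inv_cancel₀ hc, one_smul])

lemma HT.add (h : HT P v φ) (h' : HT P v ψ) : HT P v (φ + ψ) :=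
  ⟨by rw [add_dotProduct, h.1, h'.1, add_zero], _, P.mul_mem h.mem h'.mem, by
    change (1 + vv v φ) * (1 + vv v ψ) = _
    rw [tv_mul_tv, h.1, vv_add, zero_smul, add_zero, add_assoc]⟩

lemma HT.add' (h : HT P v φ) (h' : HT P w φ) : HT P (v + w) φ :=
  ⟨by rw [dotProduct_add, h.1, h'.1, add_zero], _, P.mul_mem h.mem h'.mem, by
    change (1 + vv v φ) * (1 + vv w φ) = _
    rw [tv_mul_tv, h'.1, add_vv, zero_smul, add_zero, add_assoc]⟩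

lemma HT.neg (h : HT P v φ) : HT P v (-φ) :=
  ⟨by rw [neg_dotProduct, h.1, neg_zero], _, P.inv_mem h.mem, rfl⟩

lemma HT.neg' (h : HT P v φ) : HT P (-v) φ := h.neg.congr (by ext; simp)

lemma HT.sub (h : HT P v φ) (h' : HT P v ψ) : HT P v (φ - ψ) := by
  rw [sub_eq_add_neg]; exact h.add h'.neg

lemma HT.sub' (h : HT P v φ) (h' : HT P w φ) : HT P (v - w) φ := by
  rw [sub_eq_add_neg]; exact h.add' h'.neg'

lemma HT.int (h : HT P v φ) (n : ℤ) : HT P v ((n : F) • φ) := by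
  induction n using Int.induction_on with
  | zero => simpa using ht_zero v
  | succ n ih => simpa [add_smul] using ih.add h
  | pred n ih => simpa [sub_smul] using ih.sub h

lemma HT.bot (h : HT P v φ) (p : ℕ) [Fact p.Prime] [CharP F p] {s : F} (hs : s ∈ (⊥ : Subfield F)) :
    HT P v (s • φ) := by
  obtain ⟨n, rfl⟩ := (_root_.mem_bot_iff_intCast p F).1 hs
  exact h.int n

lemma HT.conj (h : HT P v φ) {g : GL4 F} (hg : g ∈ P) :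
    HT P ((g : M4 F) *ᵥ v) (φ ᵥ* ((g⁻¹ : GL4 F) : M4 F)) :=
  ⟨by rw [← dotProduct_mulVec, mulVec_mulVec, Units.inv_mul, one_mulVec, h.1], _,
    P.mul_mem (P.mul_mem hg h.mem) (P.inv_mem hg), by
      change (g : M4 F) * (1 + vv v φ) * _ = _
      rw [mul_add, add_mul, mul_one, Units.mul_inv, conj_vv]⟩

lemma HT.conjT (h : HT P v φ) (h' : HT P w ψ) :
    HT P (v + (ψ ⬝ᵥ v) • w) (φ - (φ ⬝ᵥ w) • ψ) := by
  have := h.conj h'.mem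
  change HT P ((1 + vv w ψ) *ᵥ v) (φ ᵥ* (1 + vv w (-ψ))) at this
  rwa [tv_mulVec, vecMul_tv, smul_neg, ← sub_eq_add_neg] at this

lemma HT.comm (h : HT P v φ) (h' : HT P w ψ) (e : φ ⬝ᵥ w = 0) : HT P w ((ψ ⬝ᵥ v) • φ) := by
  have := h.conjT h'
  rw [e, zero_smul, sub_zero] at this
  have := this.sub' h
  rwa [add_sub_cancel_left, ht_smul] at this

lemma inv_mulVec_mulVec (g : GL4 F) (x : V4 F) : ((g⁻¹ : GL4 F) : M4 F) *ᵥ (g : M4 F) *ᵥ x = x := by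
  rw [mulVec_mulVec, Units.inv_mul, one_mulVec]

lemma mulVec_inv_mulVec (g : GL4 F) (x : V4 F) : (g : M4 F) *ᵥ ((g⁻¹ : GL4 F) : M4 F) *ᵥ x = x := by
  rw [mulVec_mulVec, Units.mul_inv, one_mulVec]

lemma gl_inj (g : GL4 F) {x y : V4 F} (h : (g : M4 F) *ᵥ x = (g : M4 F) *ᵥ y) : x = y := by
  rw [← inv_mulVec_mulVec g x, h, inv_mulVec_mulVec]

lemma gl_ne (g : GL4 F) (h : v ≠ 0) : (g : M4 F) *ᵥ v ≠ 0 := fun e =>
  h (gl_inj g (e.trans (mulVec_zero _).symm))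

lemma gl_ne' (g : GL4 F) (h : φ ≠ 0) : φ ᵥ* (g : M4 F) ≠ 0 := fun e =>
  h (by simpa using congrArg (· ᵥ* ((g⁻¹ : GL4 F) : M4 F)) e)

lemma dot_conj (g : GL4 F) (φ v : V4 F) :
    (φ ᵥ* ((g⁻¹ : GL4 F) : M4 F)) ⬝ᵥ ((g : M4 F) *ᵥ v) = φ ⬝ᵥ v := by
  rw [← dotProduct_mulVec, inv_mulVec_mulVec]

lemma ht_conj {g : GL4 F} (hg : g ∈ P) :
    HT P ((g : M4 F) *ᵥ v) (φ ᵥ* ((g⁻¹ : GL4 F) : M4 F)) ↔ HT P v φ :=
  ⟨fun h => by simpa using h.conj (P.inv_mem hg), fun h => h.conj hg⟩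

lemma conjT_ne (h : φ ≠ 0) (e : ψ ⬝ᵥ w = 0) : φ - (φ ⬝ᵥ w) • ψ ≠ 0 := fun e' => by
  have := congrArg (· ⬝ᵥ w) e'
  simp only [sub_dotProduct, smul_dotProduct, e, smul_zero, sub_zero, zero_dotProduct] at this
  simp [this, h] at e'

lemma conjT_ne' (h : v ≠ 0) (e : ψ ⬝ᵥ w = 0) : v + (ψ ⬝ᵥ v) • w ≠ 0 := fun e' => by
  have := congrArg (ψ ⬝ᵥ ·) e'
  simp only [dotProduct_add, dotProduct_smul, e, smul_zero, add_zero, dotProduct_zero] at this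
  simp [this, h] at e'

/-! ### change of frame and duality -/

/-- conjugate subgroup -/
def cjP (P : Subgroup (GL4 F)) (g : GL4 F) : Subgroup (GL4 F) :=
  P.comap (MulAut.conj g).toMonoidHom

lemma mem_cjP {g A : GL4 F} : A ∈ cjP P g ↔ g * A * g⁻¹ ∈ P := Iff.rfl

lemma mem_cjP' {g A : GL4 F} : g⁻¹ * A * g ∈ cjP P g ↔ A ∈ P := by
  rw [mem_cjP]; simp [mul_assoc]

lemma cjP_cjP (g : GL4 F) : cjP (cjP P g) g⁻¹ = P := by
  ext A; rw [mem_cjP, inv_inv, mem_cjP']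

lemma HT.cj (h : HT P v φ) (g : GL4 F) :
    HT (cjP P g) (((g⁻¹ : GL4 F) : M4 F) *ᵥ v) (φ ᵥ* (g : M4 F)) :=
  ⟨by rw [← dotProduct_mulVec, mulVec_mulVec, Units.mul_inv, one_mulVec, h.1], _,
    mem_cjP'.2 h.mem, by
      change ((g⁻¹ : GL4 F) : M4 F) * (1 + vv v φ) * _ = _
      rw [mul_add, add_mul, mul_one, Units.inv_mul, conj_vv]⟩

lemma HT.of_cj {g : GL4 F} (h : HT (cjP P g) v φ) :
    HT P ((g : M4 F) *ᵥ v) (φ ᵥ* ((g⁻¹ : GL4 F) : M4 F)) := by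
  have := h.cj g⁻¹
  rwa [cjP_cjP, inv_inv] at this

lemma ht_cj {g : GL4 F} : HT (cjP P g) v (φ ᵥ* (g : M4 F)) ↔ HT P ((g : M4 F) *ᵥ v) φ :=
  ⟨fun h => by simpa using h.of_cj, fun h => by simpa using h.cj g⟩

/-- inverse transpose -/
def trI : GL4 F ≃* GL4 F where
  toFun g := ⟨((g⁻¹ : GL4 F) : M4 F)ᵀ, (g : M4 F)ᵀ, by rw [← transpose_mul, Units.mul_inv, transpose_one],
    by rw [← transpose_mul, Units.inv_mul, transpose_one]⟩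
  invFun g := ⟨((g⁻¹ : GL4 F) : M4 F)ᵀ, (g : M4 F)ᵀ, by rw [← transpose_mul, Units.mul_inv, transpose_one],
    by rw [← transpose_mul, Units.inv_mul, transpose_one]⟩
  left_inv g := Units.ext (transpose_transpose _)
  right_inv g := Units.ext (transpose_transpose _)
  map_mul' g h := Units.ext (by
    change (((g * h)⁻¹ : GL4 F) : M4 F)ᵀ = ((g⁻¹ : GL4 F) : M4 F)ᵀ * ((h⁻¹ : GL4 F) : M4 F)ᵀ
    rw [_root_.mul_inv_rev, Units.val_mul, transpose_mul])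

lemma trI_trI (A : GL4 F) : trI (trI A) = A := trI.left_inv A

/-- the dual subgroup -/
def trP (P : Subgroup (GL4 F)) : Subgroup (GL4 F) := P.comap trI.toMonoidHom

lemma mem_trP {A : GL4 F} : A ∈ trP P ↔ trI A ∈ P := Iff.rfl

lemma trP_trP : trP (trP P) = P := by
  ext A; rw [mem_trP, mem_trP, trI_trI]

lemma HT.tr (h : HT P v φ) : HT (trP P) φ v :=
  ⟨by rw [dotProduct_comm, h.1], trI (tvU v φ h.1)⁻¹, by
    rw [mem_trP, trI_trI]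
    exact P.inv_mem h.mem, by
    change (1 + vv v φ)ᵀ = _
    ext i j
    simp [one_apply, eq_comm, mul_comm]⟩

lemma ht_tr : HT (trP P) φ v ↔ HT P v φ := ⟨fun h => trP_trP (P := P) ▸ h.tr, HT.tr⟩

/-- the standing hypotheses -/
structure Hy (P : Subgroup (GL4 F)) : Prop where
  det : ∀ g ∈ P, (g : M4 F).det = 1
  irr : ∀ v φ : V4 F, v ≠ 0 → φ ≠ 0 → ∃ g ∈ P, φ ⬝ᵥ (g : M4 F) *ᵥ v ≠ 0
  gen : ∀ ⦃v φ : V4 F⦄, HT P v φ → v ≠ 0 → φ ≠ 0 → ∀ Q : Subgroup (GL4 F),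
    (∀ g ∈ P, HT Q ((g : M4 F) *ᵥ v) (φ ᵥ* ((g⁻¹ : GL4 F) : M4 F))) → P ≤ Q
  ex : ∃ v φ, v ≠ 0 ∧ φ ≠ 0 ∧ HT P v φ

lemma Hy.cj (h : Hy P) (g : GL4 F) : Hy (cjP P g) where
  det A hA := by
    have := h.det _ (mem_cjP.1 hA)
    rwa [Units.val_mul, Units.val_mul, det_units_conj] at this
  irr v φ hv hφ := by
    obtain ⟨x, hx, e⟩ := h.irr _ _ (gl_ne g hv) (gl_ne' g⁻¹ hφ)
    exact ⟨_, mem_cjP'.2 hx, by
      rwa [← dotProduct_mulVec, mulVec_mulVec, mulVec_mulVec] at e⟩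
  gen v φ a hv hφ Q hQ A hA := by
    have := h.gen a.of_cj (gl_ne g hv) (gl_ne' g⁻¹ hφ) (cjP Q g⁻¹) (fun x hx => by
      have := (hQ _ (mem_cjP'.2 hx)).cj g⁻¹
      convert this using 1
      · simp only [inv_inv, Units.val_mul, ← mulVec_mulVec, mulVec_inv_mulVec]
      · simp only [_root_.mul_inv_rev, inv_inv, vecMul_vecMul, ← Units.val_mul, mul_assoc,
          mul_inv_cancel, mul_one]) hA
    simpa [mem_cjP, mul_assoc] using this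
  ex := by
    obtain ⟨v, φ, hv, hφ, a⟩ := h.ex
    exact ⟨_, _, gl_ne g⁻¹ hv, gl_ne' g hφ, a.cj g⟩

lemma Hy.tr (h : Hy P) : Hy (trP P) where
  det A hA := by
    have := h.det _ (P.inv_mem (mem_trP.1 hA))
    rwa [show (((trI A)⁻¹ : GL4 F) : M4 F) = (A : M4 F)ᵀ from rfl, det_transpose] at this
  irr v φ hv hφ := by
    obtain ⟨x, hx, e⟩ := h.irr φ v hφ hv
    refine ⟨trI x⁻¹, by rw [mem_trP, trI_trI]; exact P.inv_mem hx, ?_⟩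
    change φ ⬝ᵥ (x : M4 F)ᵀ *ᵥ v ≠ 0
    rwa [mulVec_transpose, dotProduct_comm, ← dotProduct_mulVec]
  gen v φ a hv hφ Q hQ A hA := by
    have := h.gen (ht_tr.1 a) hφ hv (trP Q) (fun x hx => by
      have := (hQ (trI x) (by rwa [mem_trP, trI_trI])).tr
      rwa [show (((trI x)⁻¹ : GL4 F) : M4 F) = (x : M4 F)ᵀ from rfl, vecMul_transpose,
        show ((trI x : GL4 F) : M4 F) = ((x⁻¹ : GL4 F) : M4 F)ᵀ from rfl, mulVec_transpose] at this) hA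
    exact trI_trI A ▸ mem_trP.1 this
  ex := by
    obtain ⟨v, φ, hv, hφ, a⟩ := h.ex
    exact ⟨_, _, hφ, hv, a.tr⟩

lemma Hy.irrS (h : Hy P) (W : Submodule F (V4 F)) (hW : ∀ g ∈ P, ∀ x ∈ W, (g : M4 F) *ᵥ x ∈ W)
    (hv : v ≠ 0) (hvW : v ∈ W) : W = ⊤ := by
  refine eq_top_iff.2 fun x _ => by_contra fun k => ?_
  obtain ⟨θ, h1, h2⟩ := sep k
  obtain ⟨g, hg, e⟩ := h.irr v θ hv (by rintro rfl; simp at h2)
  exact e (dotProduct_comm θ _ ▸ h1 _ (hW g hg v hvW))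

/-- induction over a class of transvections -/
lemma Hy.indC (h : Hy P) (a : HT P v φ) (hv : v ≠ 0) (hφ : φ ≠ 0) {p : GL4 F → Prop} (h1 : p 1)
    (hm : ∀ g ∈ P, ∀ s : F, ∀ b : HT P ((g : M4 F) *ᵥ v) (s • φ ᵥ* ((g⁻¹ : GL4 F) : M4 F)), ∀ A ∈ P,
      p A → p (tvU _ _ b.1 * A)) {g : GL4 F} (hg : g ∈ P) : p g := by
  let Q : Subgroup (GL4 F) :=
    { carrier := {g | g ∈ P ∧ ∀ A ∈ P, p A ↔ p (g * A)}
      one_mem' := ⟨P.one_mem, fun A _ => by simp⟩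
      mul_mem' := fun {a b} ha hb => ⟨P.mul_mem ha.1 hb.1, fun A hA => by
        rw [hb.2 A hA, ha.2 _ (P.mul_mem hb.1 hA), mul_assoc]⟩
      inv_mem' := fun {a} ha => ⟨P.inv_mem ha.1, fun A hA => by
        rw [ha.2 _ (P.mul_mem (P.inv_mem ha.1) hA), mul_inv_cancel_left]⟩ }
  have := h.gen a hv hφ Q (fun x hx => by
    have b := a.conj hx
    have b1 : HT P ((x : M4 F) *ᵥ v) ((1 : F) • φ ᵥ* ((x⁻¹ : GL4 F) : M4 F)) := by rwa [one_smul]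
    have b2 : HT P ((x : M4 F) *ᵥ v) ((-1 : F) • φ ᵥ* ((x⁻¹ : GL4 F) : M4 F)) := by
      rw [neg_one_smul]; exact b.neg
    refine ⟨b.1, tvU _ _ b1.1, ⟨b1.mem, fun A hA => ⟨hm x hx 1 b1 A hA, fun e => ?_⟩⟩, by
      rw [tvU_val, one_smul]⟩
    have := hm x hx _ b2 _ (P.mul_mem b1.mem hA) e
    rwa [show tvU _ _ b2.1 = (tvU _ _ b1.1)⁻¹ from Units.ext (by
      rw [tvU_val, tvU_inv, one_smul, neg_one_smul]), inv_mul_cancel_left] at this) hg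
  simpa using (this.2 1 P.one_mem).1 h1

lemma Hy.ind (h : Hy P) {p : GL4 F → Prop} (h1 : p 1)
    (hm : ∀ v φ, ∀ b : HT P v φ, ∀ A ∈ P, p A → p (tvU _ _ b.1 * A)) {g : GL4 F} (hg : g ∈ P) :
    p g := by
  obtain ⟨v, φ, hv, hφ, a⟩ := h.ex
  exact h.indC a hv hφ h1 (fun g _ s b => hm _ _ b) hg

/-- every class contains a flag in general position -/
lemma Hy.opp (h : Hy P) (a : HT P v φ) (hv : v ≠ 0) (hφ : φ ≠ 0) (hw : w ≠ 0) (hψ : ψ ≠ 0) :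
    ∃ g ∈ P, ψ ⬝ᵥ (g : M4 F) *ᵥ v ≠ 0 ∧ (φ ᵥ* ((g⁻¹ : GL4 F) : M4 F)) ⬝ᵥ w ≠ 0 := by
  by_contra! k
  let S : Set (V4 F) := {x | ∃ g ∈ P, x = (g : M4 F) *ᵥ v ∧ (φ ᵥ* ((g⁻¹ : GL4 F) : M4 F)) ⬝ᵥ w ≠ 0}
  have h1 : ∀ x ∈ Submodule.span F S, ψ ⬝ᵥ x = 0 := fun x hx => by
    induction hx using Submodule.span_induction with
    | mem x hx => obtain ⟨g, hg, rfl, e⟩ := hx; exact by_contra fun e' => e (k g hg e')
    | zero => simp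
    | add x y _ _ a b => simp [a, b]
    | smul c x _ a => simp [a]
  obtain ⟨g₀, h0, e0⟩ := h.irr w φ hw hφ
  have h2 := h.irrS (Submodule.span F S) (fun g hg => h.indC a hv hφ
    (p := fun g => ∀ x ∈ Submodule.span F S, (g : M4 F) *ᵥ x ∈ Submodule.span F S)
    (by simp) (fun g hg s b A hA ih x hx => by
      rw [Units.val_mul, ← mulVec_mulVec]
      have hy := ih x hx
      generalize (A : M4 F) *ᵥ x = y at hy
      by_cases e : (φ ᵥ* ((g⁻¹ : GL4 F) : M4 F)) ⬝ᵥ w = 0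
      swap
      · rw [tvU_val, tv_mulVec]
        exact add_mem hy (Submodule.smul_mem _ _ (Submodule.subset_span ⟨g, hg, rfl, e⟩))
      induction hy using Submodule.span_induction with
      | mem y hy =>
        obtain ⟨g', hg', rfl, e'⟩ := hy
        refine Submodule.subset_span ⟨_, P.mul_mem b.mem hg', by rw [Units.val_mul, mulVec_mulVec], ?_⟩
        rw [_root_.mul_inv_rev, Units.val_mul, ← vecMul_vecMul, tvU_inv, vecMul_tv]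
        rwa [add_dotProduct, smul_dotProduct, neg_dotProduct, smul_dotProduct, e, smul_zero, neg_zero,
          smul_zero, add_zero]
      | zero => simp
      | add x y _ _ a b => rw [mulVec_add]; exact add_mem a b
      | smul c x _ a => rw [mulVec_smul]; exact Submodule.smul_mem _ _ a) hg)
    (gl_ne g₀⁻¹ hv) (Submodule.subset_span ⟨_, P.inv_mem h0, rfl, by rwa [inv_inv, ← dotProduct_mulVec]⟩)
  exact hψ (ext_dot fun x => by simpa using h1 x (h2 ▸ Submodule.mem_top))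

lemma Hy.opp' (h : Hy P) (hw : w ≠ 0) (hψ : ψ ≠ 0) : ∃ u χ, HT P u χ ∧ ψ ⬝ᵥ u ≠ 0 ∧ χ ⬝ᵥ w ≠ 0 := by
  obtain ⟨v, φ, hv, hφ, a⟩ := h.ex
  obtain ⟨g, hg, e⟩ := h.opp a hv hφ hw hψ
  exact ⟨_, _, a.conj hg, e⟩

lemma Hy.opp1 (h : Hy P) (hw : w ≠ 0) (hψ : ψ ≠ 0) : ∃ u χ, HT P u χ ∧ ψ ⬝ᵥ u = 1 ∧ χ ⬝ᵥ w ≠ 0 := by
  obtain ⟨u, χ, a, b, c⟩ := h.opp' hw hψ
  exact ⟨_, _, a.resc b, by simp [b], by simp [b, c]⟩

/-! ### planes -/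

/-- a submonoid of a finite group -/
def sgOf {G : Type*} [Group G] [Finite G] (S : Submonoid G) : Subgroup G where
  toSubmonoid := S
  inv_mem' {a} ha := (Submonoid.powers_le.2 ha)
    ((isOfFinOrder_of_finite a).mem_powers_iff_mem_zpowers.2 (inv_mem (Subgroup.mem_zpowers a)))

lemma pl_mul (v w α β α' β' : V4 F) : (1 + vv v α + vv w β) * (1 + vv v α' + vv w β') =
    1 + vv v (α + α' + (α ⬝ᵥ v) • α' + (α ⬝ᵥ w) • β') +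
      vv w (β + β' + (β ⬝ᵥ v) • α' + (β ⬝ᵥ w) • β') := by
  simp only [mul_add, add_mul, mul_one, one_mul, vv_mul_vv, vv_add, vv_smul]
  abel

variable [Finite F]

/-- the action on a plane of the elements acting trivially modulo the plane -/
def Pl (P : Subgroup (GL4 F)) (v w : V4 F) (R : Submodule F (V4 F)) : Subgroup (GL (Fin 2) F) :=
  sgOf
    { carrier := {B | ∃ α ∈ R, ∃ β ∈ R, ∃ g ∈ P, (g : M4 F) = 1 + vv v α + vv w β ∧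
        B 0 0 = 1 + α ⬝ᵥ v ∧ B 0 1 = α ⬝ᵥ w ∧ B 1 0 = β ⬝ᵥ v ∧ B 1 1 = 1 + β ⬝ᵥ w}
      one_mem' := ⟨0, R.zero_mem, 0, R.zero_mem, 1, P.one_mem, by simp, by simp⟩
      mul_mem' := by
        rintro A B ⟨α, hα, β, hβ, g, hg, e, a0, a1, a2, a3⟩ ⟨α', hα', β', hβ', g', hg', e', b0, b1, b2, b3⟩
        refine ⟨_, R.add_mem (R.add_mem (R.add_mem hα hα') (R.smul_mem _ hα')) (R.smul_mem _ hβ'), _,
          R.add_mem (R.add_mem (R.add_mem hβ hβ') (R.smul_mem _ hα')) (R.smul_mem _ hβ'), _,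
          P.mul_mem hg hg', by rw [Units.val_mul, e, e', pl_mul], ?_, ?_, ?_, ?_⟩ <;>
        simp [mul_apply, Fin.sum_univ_two, a0, a1, a2, a3, b0, b1, b2, b3] <;> ring }

lemma mem_Pl {R : Submodule F (V4 F)} {B : GL (Fin 2) F} : B ∈ Pl P v w R ↔
    ∃ α ∈ R, ∃ β ∈ R, ∃ g ∈ P, (g : M4 F) = 1 + vv v α + vv w β ∧
      B 0 0 = 1 + α ⬝ᵥ v ∧ B 0 1 = α ⬝ᵥ w ∧ B 1 0 = β ⬝ᵥ v ∧ B 1 1 = 1 + β ⬝ᵥ w := Iff.rfl

lemma up_mem {R : Submodule F (V4 F)} (h : HT P v φ) (hR : φ ∈ R) (w : V4 F) :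
    up (φ ⬝ᵥ w) ∈ Pl P v w R :=
  ⟨φ, hR, 0, R.zero_mem, _, h.mem, by simp [tvU_val], by simp [h.1]⟩

lemma lo_mem {R : Submodule F (V4 F)} (h : HT P w ψ) (hR : ψ ∈ R) (v : V4 F) :
    lo (ψ ⬝ᵥ v) ∈ Pl P v w R :=
  ⟨0, R.zero_mem, ψ, hR, _, h.mem, by simp [tvU_val], by simp [h.1]⟩

omit [Finite F] in
lemma pair_eq (h1 : φ ⬝ᵥ v = 0) (h2 : ψ ⬝ᵥ w = 0) (h3 : φ ⬝ᵥ w ≠ 0) (h4 : ψ ⬝ᵥ v ≠ 0) {α : V4 F}
    (h : α ∈ Submodule.span F {φ, ψ}) : α = (α ⬝ᵥ w / φ ⬝ᵥ w) • φ + (α ⬝ᵥ v / ψ ⬝ᵥ v) • ψ := by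
  obtain ⟨a, b, rfl⟩ := Submodule.mem_span_pair.1 h
  simp [h1, h2, h3, h4]

lemma up_iff (h1 : φ ⬝ᵥ v = 0) (h2 : ψ ⬝ᵥ w = 0) (h3 : φ ⬝ᵥ w = 1) (h4 : ψ ⬝ᵥ v ≠ 0) (s : F) :
    up s ∈ Pl P v w (Submodule.span F {φ, ψ}) ↔ HT P v (s • φ) := by
  constructor
  · rintro ⟨α, hα, β, hβ, g, hg, e, a0, a1, a2, a3⟩
    have k1 := pair_eq h1 h2 (h3 ▸ one_ne_zero) h4 hα
    have k2 := pair_eq h1 h2 (h3 ▸ one_ne_zero) h4 hβ
    simp at a0 a1 a2 a3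
    simp [a0, ← a1, ← a2, a3, h3] at k1 k2
    exact ⟨by simp [h1], g, hg, by simp [e, k1, k2]⟩
  · intro h
    simpa [h3] using up_mem h (Submodule.smul_mem _ _ (Submodule.subset_span (by simp))) w

lemma opp_swap (h : HT P v φ) (h' : HT P w ψ) (h1 : φ ⬝ᵥ w ≠ 0) (h2 : ψ ⬝ᵥ v ≠ 0) :
    ∃ g ∈ P, ∃ a b : F, (g : M4 F) *ᵥ v = a • w ∧ φ ᵥ* ((g⁻¹ : GL4 F) : M4 F) = b • ψ := by
  obtain ⟨B, ⟨α, hα, β, hβ, g, hg, e, a0, a1, a2, a3⟩, hB⟩ := H7.PA.exists_swap h1 h2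
    (up_mem (R := Submodule.span F {φ, ψ}) h (Submodule.subset_span (by simp)) w)
    (lo_mem h' (Submodule.subset_span (by simp)) v)
  have k1 := pair_eq h.1 h'.1 h1 h2 hα
  have a4 : α ⬝ᵥ v = -1 := by linear_combination hB - a0
  have e1 : (g : M4 F) *ᵥ v = (β ⬝ᵥ v) • w := by
    rw [e, add_mulVec, tv_mulVec, vv_mulVec, a4]; simp
  have e2 : ψ ᵥ* (g : M4 F) = ((ψ ⬝ᵥ v) * (α ⬝ᵥ w / φ ⬝ᵥ w)) • φ := by
    rw [e, vecMul_add, vecMul_tv, vecMul_vv, h'.1, zero_smul, add_zero]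
    nth_rw 1 [k1]
    rw [a4, smul_add, smul_smul, smul_smul, mul_div_cancel₀ _ h2]
    simp
  have e3 : (ψ ⬝ᵥ v) * (α ⬝ᵥ w / φ ⬝ᵥ w) ≠ 0 := fun k =>
    gl_ne' g (ne_of_dot h2).1 (by rw [e2, k, zero_smul])
  refine ⟨g, hg, _, ((ψ ⬝ᵥ v) * (α ⬝ᵥ w / φ ⬝ᵥ w))⁻¹, e1, ?_⟩
  rw [eq_inv_smul_iff₀ e3, ← smul_vecMul, ← e2]
  simp

lemma Hy.flag_conj (hy : Hy P) (h : HT P v φ) (hv : v ≠ 0) (hφ : φ ≠ 0) (h' : HT P w ψ)
    (hw : w ≠ 0) (hψ : ψ ≠ 0) : ∃ g ∈ P, ∃ a b : F, a ≠ 0 ∧ b ≠ 0 ∧ (g : M4 F) *ᵥ v = a • w ∧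
      φ ᵥ* ((g⁻¹ : GL4 F) : M4 F) = b • ψ := by
  obtain ⟨g, hg, a1, a2⟩ := hy.opp h hv hφ hw hψ
  obtain ⟨x, hx, a, b, b1, b2⟩ := opp_swap (h.conj hg) h' a2 a1
  rw [mulVec_mulVec, ← Units.val_mul] at b1
  rw [vecMul_vecMul, ← Units.val_mul, ← _root_.mul_inv_rev] at b2
  exact ⟨_, P.mul_mem hx hg, a, b, fun e => gl_ne _ hv (by rw [b1, e, zero_smul]),
    fun e => gl_ne' _ hφ (by rw [b2, e, zero_smul]), b1, b2⟩

/-- order of a root group -/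
noncomputable def nT (P : Subgroup (GL4 F)) (v φ : V4 F) : ℕ := Nat.card {s : F // HT P v (s • φ)}

lemma Hy.nT_eq (hy : Hy P) (h : HT P v φ) (hv : v ≠ 0) (hφ : φ ≠ 0) (h' : HT P w ψ)
    (hw : w ≠ 0) (hψ : ψ ≠ 0) : nT P v φ = nT P w ψ := by
  obtain ⟨g, hg, a, b, ha, hb, a1, a2⟩ := hy.flag_conj h hv hφ h' hw hψ
  refine Nat.card_congr ((Equiv.mulRight₀ _ (mul_ne_zero ha hb)).subtypeEquiv fun s => ?_)
  rw [← ht_conj hg, smul_vecMul, a1, a2, ht_smul, smul_smul, smul_smul, mul_comm a, mul_assoc]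
  rfl

lemma opp_core (h : HT P v φ) (h' : HT P w ψ) (h1 : φ ⬝ᵥ w ≠ 0) (h2 : ψ ⬝ᵥ v ≠ 0)
    (h3 : 3 ≤ nT P v φ) : (∃ k : Subfield F, (∀ s, HT P v (s • φ) ↔ s ∈ k) ∧ φ ⬝ᵥ w * ψ ⬝ᵥ v ∈ k) ∨
      ((3 : F) = 0 ∧ nT P v φ = 3 ∧ (φ ⬝ᵥ w * ψ ⬝ᵥ v) ^ 5 = φ ⬝ᵥ w * ψ ⬝ᵥ v) := by
  have k1 := h'.resc h1
  have k2 : φ ⬝ᵥ (φ ⬝ᵥ w)⁻¹ • w = 1 := by simp [h1]
  have k3 : ((φ ⬝ᵥ w) • ψ) ⬝ᵥ v = φ ⬝ᵥ w * ψ ⬝ᵥ v := by simp
  rw [← k3]
  have k4 := k3 ▸ mul_ne_zero h1 h2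
  generalize (φ ⬝ᵥ w)⁻¹ • w = w' at *
  generalize (φ ⬝ᵥ w) • ψ = ψ' at *
  have e := up_iff (P := P) h.1 k1.1 k2 k4
  have hc : Nat.card {s // up s ∈ _} = nT P v φ := Nat.card_congr (Equiv.subtypeEquivRight e)
  rcases H7.PA.core2 (hc ▸ h3) k4 (lo_mem k1 (Submodule.subset_span (by simp)) v) with
    ⟨k, α, hα, a1, a2⟩ | ⟨a1, a2, a3⟩
  · have hk : α ∈ k := by simpa using k.inv_mem ((a1 1).1 ((e 1).2 (by simpa using h)))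
    refine Or.inl ⟨k, fun s => (e s).symm.trans ((a1 s).trans ⟨fun h => ?_, fun h => k.div_mem h hk⟩),
      ?_⟩
    · simpa [hα] using k.mul_mem h hk
    · simpa [hα] using k.mul_mem (k.inv_mem hk) a2
  · exact Or.inr ⟨a1, hc ▸ a2, by simpa using a3 1 ((e 1).2 (by simpa using h))⟩

end Cfsg.Agent.H4.TV
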