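import Cfsg.Agent.H7.U7Big
import Cfsg.Agent.H5.U.Frame2

/-! Subgroups of `SU₄(q)` containing enough full groups of transvections. -/

set_option autoImplicit false
set_option linter.unusedSectionVars false
set_option linter.unusedVariables false
set_option linter.unnecessarySimpa false
set_option linter.style.haveILetI false
set_option linter.unusedSimpArgs false

namespace Cfsg.Agent.H4.TV

open Module Cfsg.Agent.H6 Cfsg.Agent.H5.U Cfsg.Agent.H5.U.HF Cfsg.Agent.H6.U5

variable {F : Type*} {V : Type*} [Field F] [StarRing F] [AddCommGroup V] [Module F V]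
  [NStar F] [Finite F] [FiniteDimensional F V] {h : H5.U.HF F V} {M : Subgroup (V ≃ₗ[F] V)}
  {e f u w : V} {c : F}

/-- centres in general position -/
def Op (h : H5.U.HF F V) (M : Subgroup (V ≃ₗ[F] V)) : Prop :=
  ∀ e y : V, e ≠ 0 → y ≠ 0 → ∃ u, h u u = 0 ∧ h.XIn M u ∧ h u e ≠ 0 ∧ h u y ≠ 0

theorem Op.top (op : Op h M) (e0 : e ≠ 0) : UU h M e = ⊤ := by
  refine eq_top_iff.2 fun x _ => by_contra fun k => ?_
  obtain ⟨y, hy, e1⟩ := exists_perp_ne (h := h) k
  obtain ⟨u, uu, Xu, ue, uy⟩ := op e y e0 (ne_zero_right (by rw [e1]; exact one_ne_zero))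
  exact uy (symm0 (hy u (mem_UU uu Xu ue)))

/-- a normalised triple of centres spanning a non-degenerate space -/
structure Tp (h : H5.U.HF F V) (M : Subgroup (V ≃ₗ[F] V)) (e f w : V) (c : F) : Prop where
  ee : h e e = 0
  ff : h f f = 0
  ef : h e f = 1
  Xe : h.XIn M e
  Xf : h.XIn M f
  we : h w e = 0
  wf : h w f = 0
  hc : c + star c = h w w
  X : h.XIn M (f + w - c • e)
  ww : h w w ≠ 0

theorem exists_tp {a b d : V} (aa : h a a = 0) (bb : h b b = 0) (dd : h d d = 0) (Xa : h.XIn M a)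
    (Xb : h.XIn M b) (Xd : h.XIn M d)
    (ht : h b a * h d b * h a d + star (h b a * h d b * h a d) ≠ 0) : ∃ e f w c, Tp h M e f w c := by
  have ba : h b a ≠ 0 := fun k => ht (by simp [k])
  have ad : h a d ≠ 0 := fun k => ht (by simp [k])
  have ab := symm_ne ba
  have da := symm_ne ad
  refine ⟨a, (h b a)⁻¹ • b, (h d a)⁻¹ • d - (h b a)⁻¹ • b - (h d b / (h d a * h a b)) • a,
    -(h d b / (h d a * h a b)), aa, by simp [bb], by simp [ab], Xa, Xb.smul bb _, by simp [aa, ba, da],
    ?_, ?_, ?_, fun k => ht ?_⟩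
  · simp [bb, ab]; field_simp; ring
  · simp [aa, bb, dd]; field_simp; ring
  · convert Xd.smul dd (h d a)⁻¹ using 1
    module
  · simp [aa, bb, dd] at k ⊢
    field_simp at k
    linear_combination -k

theorem Tp.big (t : Tp h M e f w c) (hq : ∃ t : F, star t = t ∧ t ≠ 0 ∧ t ≠ 1) (hM : M ≤ h.SU)
    (op : Op h M) : h.SU ≤ M := by
  obtain ⟨ee, ff, ef, Xe, Xf, ae, af, hc, hX, aa⟩ := t
  have hU := op.top (ne_zero_left (h := h) (y := f) (by rw [ef]; exact one_ne_zero))
  have ha := ME_of_X hM hq ee ff ef Xe Xf ae af hc hX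
  refine SU_le_of_core hM ee ff ef Xe Xf (span_X ee ff ef hU _ fun x x1 x2 d hd hY l => ?_)
  have hx := ME_of_X hM hq ee ff ef Xe Xf x1 x2 hd hY
  by_cases xx : h x x = 0
  swap; · exact ME_all hM hq ee ff ef Xe Xf x2 hx xx l
  obtain ⟨c, c0, hc⟩ := exists_tr_zero_mul (h w x)
  have h6 := ME_all hM hq ee ff ef Xe Xf af ha aa
  have h7 := ME_all hM hq ee ff ef Xe Xf (w := x + c • w) (by simp [x2, af]) (add_mem hx (h6 c)) (by
      simp only [add_left, add_right, smul_left, smul_right, xx, conj] at hc ⊢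
      intro h0
      exact mul_ne_zero (norm_ne_zero c0) aa (by linear_combination h0 - hc)) l
  simpa [smul_smul] using sub_mem h7 (h6 (l * c))

section Four

variable (hq : ∀ t : F, star t = t → t = 0 ∨ t = 1)
include hq

theorem star_F4 (x : F) : star x = x ^ 2 := by
  have h2 := two_eq_zero_of_F4 hq
  rcases hq (x + star x) (by simp [add_comm]) with k | k
  · rcases hq x (by linear_combination k - x * h2) with rfl | rfl <;> simp
  · have := norm_eq_one_of_F4 hq (x := x) (by rintro rfl; simp at k)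
    linear_combination (1 - x) * k + this + (1 - x) * h2

theorem Tp.nine (t : Tp h M e f w c) (hM : M ≤ h.SU) (α β γ : F)
    (hy : h (α • e + β • f + γ • w) (α • e + β • f + γ • w) = 0) :
    h.XIn M (α • e + β • f + γ • w) := by
  obtain ⟨ee, ff, ef, Xe, Xf, we, wf, hc, hX, ww⟩ := t
  have h2 := two_eq_zero_of_F4 hq
  have st := star_F4 hq
  have fe := symm1 ef
  have ew := symm0 we
  have fw := symm0 wf
  have w1 : h w w = 1 := (hq _ (h.conj w w)).resolve_left ww
  have o1 : (1 : F) + star 1 = 0 := by rw [star_one]; linear_combination h2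
  by_cases g0 : γ = 0
  · rw [g0, zero_smul, add_zero] at hy ⊢
    exact XIn.line hM ee ff (by simp [fe]) Xe Xf α β hy
  have iso : ∀ α γ : F, α ^ 2 = α + 1 → γ ≠ 0 → h (α • e + f + γ • w) (α • e + f + γ • w) = 0 :=
    fun α γ a g => by
      have := norm_eq_one_of_F4 hq g
      simp only [add_left, add_right, smul_left, smul_right, ee, ff, ef, fe, we, wf, ew, fw, w1, st α]
      linear_combination a + this + (α + 1) * h2
  have A : ∀ α γ : F, α ^ 2 = α + 1 → γ ≠ 0 → h.XIn M (α • e + f + γ • w) →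
      h.XIn M ((α + 1) • e + f + γ • w) := fun α γ a g k => by
    convert k.map hM (iso α γ a g) (Xe 1 o1) using 1
    simp only [T_apply ee o1, add_left, smul_left, ee, fe, we]
    module
  have B : ∀ α γ : F, α ^ 2 = α + 1 → γ ≠ 0 → h.XIn M (α • e + f + γ • w) →
      h.XIn M ((α + 1) • e + f + (α * γ) • w) := fun α γ a g k => by
    convert (k.map hM (iso α γ a g) (Xf 1 o1)).smul (by rw [T_mem_GU, iso α γ a g]) α using 1
    simp only [T_apply ff o1, add_left, smul_left, ef, ff, wf]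
    match_scalars
    · linear_combination -a
    · linear_combination -a - α * h2
    · ring
  have c1 : c ^ 2 = c + 1 := by rw [st, w1] at hc; linear_combination hc - c * h2
  have c2 : (c + 1) ^ 2 = c + 1 + 1 := by linear_combination c1 + c * h2
  have c0 : c ≠ 0 := by rintro rfl; simp at c1
  have c3 : c + 1 ≠ 0 := by rw [← c1]; exact pow_ne_zero _ c0
  have cc : c + 1 + 1 = c := by linear_combination h2
  have x1 : h.XIn M (c • e + f + (1 : F) • w) := by
    convert hX using 1
    match_scalars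
    · linear_combination c * h2
    · ring
    · ring
  have x2 := A _ _ c1 one_ne_zero x1
  have x3 := B _ _ c1 one_ne_zero x1
  have x4 := B _ _ c2 one_ne_zero x2
  rw [mul_one] at x3 x4
  have x5 := A _ _ c2 c0 x3
  rw [cc] at x4 x5
  have x6 := A _ _ c1 c3 x4
  have all : ∀ x : F, x ^ 2 = x + 1 → x = c ∨ x = c + 1 := fun x k => by
    rcases hq (x + c) (by rw [star_add, st, st, k, c1]; linear_combination h2) with k | k
    · exact Or.inl (by linear_combination k - c * h2)
    · exact Or.inr (by linear_combination k - c * h2)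
  have N := norm_eq_one_of_F4 hq g0
  simp only [add_left, add_right, smul_left, smul_right, ee, ff, ef, fe, we, wf, ew, fw, w1] at hy
  have b0 : β ≠ 0 := by rintro rfl; simp [g0] at hy
  have Nb := norm_eq_one_of_F4 hq b0
  have k1 : (α * star β) ^ 2 = α * star β + 1 := by
    rw [← st, star_mul', star_star]; linear_combination hy - N - (α * star β) * h2 - (1 : F) * h2
  have k2 : γ * star β = 1 ∨ (γ * star β) ^ 2 = γ * star β + 1 := by
    rcases hq (γ * star β + star (γ * star β)) (by simp [add_comm]) with k | k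
    · exact Or.inl ((hq _ (by linear_combination k - γ * star β * h2)).resolve_left
        (mul_ne_zero g0 (star_ne_zero' b0)))
    · exact Or.inr (by rw [← st]; linear_combination k - γ * star β * h2)
  have k3 : h.XIn M ((α * star β) • e + f + (γ * star β) • w) := by
    rcases all _ k1 with a | a <;> rcases k2 with g | g
    · rwa [a, g]
    · rcases all _ g with g | g <;> rwa [a, g]
    · rwa [a, g]
    · rcases all _ g with g | g <;> rwa [a, g]
  convert k3.smul (iso _ _ k1 (mul_ne_zero g0 (star_ne_zero' b0))) β using 1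
  match_scalars
  · linear_combination -α * Nb
  · ring
  · linear_combination -γ * Nb

theorem Tp.frame (t : Tp h M e f w c) (hM : M ≤ h.SU) (op : Op h M) (hV : finrank F V = 4) :
    ∃ b : Fin 4 → V, h.ONB b ∧ h.XIn M (b 0 + b 3) ∧ ∀ y, h y y = 0 → h y (b 3) = 0 → h.XIn M y := by
  have h2 := two_eq_zero_of_F4 hq
  have w1 : h w w = 1 := (hq _ (h.conj w w)).resolve_left t.ww
  have hw : w ∈ ⊤ ⊓ h.pv e ⊓ h.pv f := ⟨⟨trivial, t.we⟩, t.wf⟩
  have h1 := finrank_inf_hyp (h := h) (W := ⊤) trivial trivial t.ee t.ef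
  have h3 := finrank_inf_unit hw t.ww
  rw [finrank_top] at h1
  obtain ⟨o', o1, o2, o3⟩ := (((ndOn_top (h := h)).inf_pv₂ trivial trivial t.ee t.ff t.ef).inf_pv hw
    t.ww).exists_ON 1 (by omega)
  obtain ⟨⟨⟨-, oe⟩, of⟩, ow⟩ := o1 0
  have oo : h (o' 0) (o' 0) = 1 := by simpa using o2 0 0
  simp only [Fin.sum_univ_one] at o3
  generalize o' 0 = o at *
  change h o _ = 0 at oe of ow
  have o0 : o ≠ 0 := ne_zero_left (h := h) (y := o) (by rw [oo]; exact one_ne_zero)
  obtain ⟨u, uu, Xu, uo, -⟩ := op o o o0 o0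
  have ou := symm_ne uo
  have xo : h ((h u o)⁻¹ • u - o) o = 0 := by simp [uo, oo]
  have xx : h ((h u o)⁻¹ • u - o) ((h u o)⁻¹ • u - o) = 1 := by
    simp [uo, ou, oo, uu]; linear_combination -h2
  have Xx : h.XIn M ((h u o)⁻¹ • u - o + o) := by simpa using Xu.smul uu _
  generalize (h u o)⁻¹ • u - o = x at *
  have hx : x ∈ ⊤ ⊓ h.pv o := ⟨trivial, xo⟩
  have h4 := finrank_inf_unit (h := h) (W := ⊤) (v := o) trivial (by simp [oo])
  have h5 := finrank_inf_unit (h := h) hx (by simp [xx])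
  rw [finrank_top] at h4
  obtain ⟨p, p1, p2, p3⟩ := (((ndOn_top (h := h)).inf_pv (v := o) trivial (by simp [oo])).inf_pv hx
    (by simp [xx])).exists_ON 2 (by omega)
  have q1 : ∀ i, h (p i) o = 0 := fun i => (p1 i).1.2
  have q2 : ∀ i, h (p i) x = 0 := fun i => (p1 i).2
  have ox := symm0 xo
  refine ⟨![x, p 0, p 1, o], ⟨fun i j => ?_, fun y => ?_⟩, Xx, fun y yy (yo : h y o = 0) => ?_⟩
  · fin_cases i <;> fin_cases j <;>
      simp [xx, oo, xo, ox, q1, q2, symm0 (q1 _), symm0 (q2 _), p2 _ _]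
  · have := p3 (y - h y x • x - h y o • o) ⟨⟨trivial, by simp [xo, oo]⟩, by simp [xx, ox]⟩
    simp only [Fin.sum_univ_two, sub_left, smul_left, symm0 (q1 _), symm0 (q2 _), mul_zero,
      sub_zero] at this
    simp only [Fin.sum_univ_four, Matrix.cons_val_zero, Matrix.cons_val_one, Matrix.cons_val]
    linear_combination (norm := module) this
  · have := o3 (y - h y f • e - h y e • f - h y w • w) ⟨⟨⟨trivial, by
      simp [t.ee, symm1 t.ef, t.we]⟩, by simp [t.ff, t.ef, t.wf]⟩, by
        simp [symm0 t.we, symm0 t.wf, w1]⟩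
    simp only [sub_left, smul_left, yo, symm0 oe, symm0 of, symm0 ow, mul_zero, sub_zero,
      zero_smul] at this
    have e1 : y = h y f • e + h y e • f + h y w • w := by
      linear_combination (norm := module) this
    rw [e1] at yy ⊢
    exact t.nine hq hM _ _ _ yy

theorem wt4 {b : Fin 4 → V} (hb : h.ONB b) (hM : M ≤ h.SU) (op : Op h M) (h03 : h.XIn M (b 0 + b 3))
    (hW : ∀ y, h y y = 0 → h y (b 3) = 0 → h.XIn M y) {v : V} (Xv : h.XIn M v)
    (hv : ∀ m, h v (b m) ≠ 0) : h.SU ≤ M := by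
  have h2 := two_eq_zero_of_F4 hq
  have st := star_F4 hq
  have N : ∀ x : F, x ≠ 0 → x * star x = 1 := fun x => norm_eq_one_of_F4 hq
  have o1 : (1 : F) + star 1 = 0 := by rw [star_one]; linear_combination h2
  have iso : ∀ i j, i ≠ j → ∀ α β : F, α ≠ 0 → β ≠ 0 →
      h (α • b i + β • b j) (α • b i + β • b j) = 0 := fun i j ij α β a0 b0 => by
    simp only [add_left, add_right, smul_left, smul_right, hb.self, hb.ne ij, hb.ne ij.symm]
    linear_combination N α a0 + N β b0 + h2
  have X1 : ∀ i j, i ≠ j → i ≠ 3 → j ≠ 3 → ∀ α β : F, α ≠ 0 → β ≠ 0 → h.XIn M (α • b i + β • b j) :=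
    fun i j ij i3 j3 α β a0 b0 => hW _ (iso i j ij α β a0 b0) (by simp [hb.ne i3, hb.ne j3])
  have X2 : ∀ j, j ≠ 0 → j ≠ 3 → ∀ α β : F, α ≠ 0 → β ≠ 0 → h.XIn M (α • b j + β • b 3) :=
    fun j j0 j3 α β a0 b0 => by
      have i1 := iso 0 j j0.symm 1 (α / β) one_ne_zero (div_ne_zero a0 b0)
      have i2 : h (b 0 + b 3) (b 0 + b 3) = 0 := by
        simpa using iso 0 3 (by decide) 1 1 one_ne_zero one_ne_zero
      convert (h03.map hM i2 (X1 0 j j0.symm (by decide) j3 1 (α / β) one_ne_zero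
        (div_ne_zero a0 b0) 1 o1)).smul (by rw [T_mem_GU, i2]) β using 1
      simp only [T_apply i1 o1, add_left, add_right, smul_right, hb.self, hb.ne j0.symm, hb.ne j3.symm,
        hb.ne (show (3 : Fin 4) ≠ 0 by decide), star_one]
      match_scalars
      · field_simp; ring
      · ring
      · linear_combination -β * h2
  have ev := hb.span v
  rw [Fin.sum_univ_four] at ev
  have n0 := N _ (hv 0); have n1 := N _ (hv 1); have n2 := N _ (hv 2); have n3 := N _ (hv 3)
  have v0 := hv 0; have v1 := hv 1; have v2 := hv 2; have v3 := hv 3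
  generalize h v (b 0) = a0 at *
  generalize h v (b 1) = a1 at *
  generalize h v (b 2) = a2 at *
  generalize h v (b 3) = a3 at *
  subst ev
  have ee := iso 0 1 (by decide) a0 a1 v0 v1
  have on : ∀ i j, h (b i) (b j) = if i = j then 1 else 0 := hb.on
  have e0 : a0 • b 0 + a1 • b 1 ≠ 0 := ne_zero_left (h := h) (y := b 0) (by simpa [on] using v0)
  refine bigE' hM (op.top e0) e0 ee (X1 0 1 (by decide) (by decide) (by decide) a0 a1 v0 v1)
    (iso 2 3 (by decide) a2 a3 v2 v3) (fun c k => v3 (by simpa [on] using congrArg (h · (b 3)) k))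
    fun l => ?_
  by_cases l0 : l = 0
  · simp [l0]
  have s0 := star_ne_zero' l0
  have nl := N l l0
  have sl : star l ^ 2 = l := by rw [← st, star_star]
  rw [smul_add, smul_smul, smul_smul, ← one_smul F ((l * a2) • b 2 + _)]
  refine smul_mem_ME_of_X ee (iso 2 3 (by decide) _ _ (mul_ne_zero l0 v2) (mul_ne_zero l0 v3))
    (by simp [on]) o1 (X1 0 1 (by decide) (by decide) (by decide) a0 a1 v0 v1)
    (X2 2 (by decide) (by decide) _ _ (mul_ne_zero l0 v2) (mul_ne_zero l0 v3)) ?_
  have i1 := iso 0 2 (by decide) a0 (star l * a2) v0 (mul_ne_zero s0 v2)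
  have i2 := iso 1 3 (by decide) a1 (star l * a3) v1 (mul_ne_zero s0 v3)
  have i0 : h (a0 • b 0 + a1 • b 1 + a2 • b 2 + a3 • b 3) (a0 • b 0 + a1 • b 1 + a2 • b 2 + a3 • b 3) = 0 := by
    simp [on]; linear_combination n0 + n1 + n2 + n3 + 2 * h2
  have y1 := Xv.map hM i0 (X1 0 2 (by decide) (by decide) (by decide) _ _ v0 (mul_ne_zero s0 v2) 1 o1)
  have y2 := (y1.map hM (by rw [T_mem_GU, i0])
    (X2 1 (by decide) (by decide) _ _ v1 (mul_ne_zero s0 v3) 1 o1)).smul
      (by rw [T_mem_GU, T_mem_GU, i0]) (star l)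
  convert y2 using 1
  have r1 : h (a0 • b 0 + a1 • b 1 + a2 • b 2 + a3 • b 3) (a0 • b 0 + (star l * a2) • b 2) = 1 + l := by
    simp [on]; linear_combination n0 + l * n2
  have r2 : h (a0 • b 0 + a1 • b 1 + a2 • b 2 + a3 • b 3 + (1 + l) • (a0 • b 0 + (star l * a2) • b 2))
      (a1 • b 1 + (star l * a3) • b 3) = 1 + l := by
    simp [on]; linear_combination n1 + l * n3
  rw [T_apply i1 o1, one_mul, r1, T_apply i2 o1, one_mul, r2]
  match_scalars
  · linear_combination -a0 * nl - star l * a0 * h2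
  · linear_combination -a1 * nl - star l * a1 * h2
  · linear_combination -a2 * sl - star l * a2 * nl - star l * a2 * h2
  · linear_combination -a3 * sl - star l * a3 * nl - star l * a3 * h2

theorem wt2 {b : Fin 4 → V} (hb : h.ONB b) {v : V} (vv : h v v = 0) {k : Fin 4} (hk : h v (b k) = 0)
    (j : Fin 4) : ∃ l, ∃ a : F, b j + h (b j) v • v = a • b l := by
  have h2 := two_eq_zero_of_F4 hq
  by_cases hj : h v (b j) = 0
  · exact ⟨j, 1, by simp [symm0 hj]⟩
  have jk : j ≠ k := by rintro rfl; exact hj hk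
  have n := norm_eq_one_of_F4 hq hj
  rw [conj] at n
  have y1 : h (b j + h (b j) v • v) (b j + h (b j) v • v) = 1 := by
    simp [hb.self, vv]; linear_combination 2 * n + h2
  have y2 : h (b j + h (b j) v • v) (b j) = 0 := by simp [hb.self]; linear_combination n + h2
  have y3 : h (b j + h (b j) v • v) (b k) = 0 := by simp [hb.ne jk, hk]
  generalize b j + h (b j) v • v = y at *
  by_contra! H
  have k1 : ∀ l, ∃ m, m ≠ l ∧ h y (b m) ≠ 0 := fun l => by
    by_contra! k
    refine H l (h y (b l)) (hb.ext fun m => ?_)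
    by_cases e : m = l
    · simp [e, hb.self]
    · simp [k m e, hb.ne (Ne.symm e)]
  obtain ⟨r, -, hr⟩ := k1 0
  obtain ⟨s, sr, hs⟩ := k1 r
  have e1 : r ≠ j := by rintro rfl; exact hr y2
  have e2 : r ≠ k := by rintro rfl; exact hr y3
  have e3 : s ≠ j := by rintro rfl; exact hs y2
  have e4 : s ≠ k := by rintro rfl; exact hs y3
  rw [hb.form, ← Finset.add_sum_erase _ _ (Finset.mem_univ r),
    ← Finset.add_sum_erase _ _ (show s ∈ _ by simp [sr]), Finset.sum_eq_zero (fun n hn => by
      simp only [Finset.mem_erase] at hn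
      rcases (show n = j ∨ n = k by omega) with rfl | rfl <;> simp [y2, y3])] at y1
  have := norm_eq_one_of_F4 hq hr
  have := norm_eq_one_of_F4 hq hs
  simp only [conj] at *
  exact one_ne_zero (α := F) (by linear_combination ‹h y (b r) * _ = 1› + this - y1 + h2)

theorem Tp.four (t : Tp h M e f w c) (hM : M ≤ h.SU) (op : Op h M) (hV : finrank F V = 4) :
    h.SU ≤ M ∨ ∃ b : Fin 4 → V, (∀ j, b j ≠ 0) ∧ ∀ v, h v v = 0 → h.XIn M v →
      ∀ j, ∃ l, ∃ a : F, b j + h (b j) v • v = a • b l := by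
  obtain ⟨b, hb, h1, h3⟩ := t.frame hq hM op hV
  refine or_iff_not_imp_left.2 fun k => ⟨b, fun j => ne_zero_left (h := h) (y := b j)
    (by simp [hb.self]), fun v vv Xv => ?_⟩
  obtain ⟨m, hm⟩ : ∃ m, h v (b m) = 0 := by
    by_contra! H
    exact k (wt4 hq hb hM op h1 h3 Xv H)
  exact wt2 hq hb vv hm

end Four

end Cfsg.Agent.H4.TV
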