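import Cfsg.Agent.H4.TV.T8
import Cfsg.Agent.H4.TV.T9

/-! Groups generated by transvections in dimension four: the unitary classification. -/

set_option autoImplicit false
set_option linter.unusedSectionVars false
set_option linter.unusedVariables false
set_option linter.unnecessarySimpa false
set_option linter.style.haveILetI false
set_option linter.unusedSimpArgs false

namespace Cfsg.Agent.H4.TV

open Cfsg.Geo Matrix Cfsg.Agent.H5.U Cfsg.Agent.H5.U.HF
open scoped MatrixGroups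

section

variable {F : Type*} [Field F] [StarRing F] [NStar F] [Finite F] {h : H5.U.HF F (V4 F)}
  {P : Subgroup (GL4 F)} {v φ : V4 F} {k : Subfield F}

lemma flag_uni (hU : ∀ g ∈ P, H6.gl0 g ∈ h.GU) (a : HT P v φ) (hv : v ≠ 0) (hφ : φ ≠ 0) :
    h v v = 0 ∧ ∃ l : F, l ≠ 0 ∧ l + star l = 0 ∧ ∀ x, φ ⬝ᵥ x = l * h x v := by
  have k : ∀ x y, h (x + (φ ⬝ᵥ x) • v) (y + (φ ⬝ᵥ y) • v) = h x y := fun x y => by
    simpa only [H6.gl0_apply, tvU_val, tv_mulVec] using hU _ a.mem x y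
  obtain ⟨z, hz⟩ := exists_dot hφ
  have vv : h v v = 0 := by simpa [a.1, hz] using k v z
  obtain ⟨y, hy⟩ := h.exists_ne hv
  have e : ∀ x, φ ⬝ᵥ x = -(star (φ ⬝ᵥ y) / h v y) * h x v := fun x => by
    have := k x y
    have := symm_ne hy
    simp only [add_left, add_right, smul_left, smul_right, vv] at *
    field_simp
    linear_combination ‹_ = h x y›
  generalize -(star (φ ⬝ᵥ y) / h v y) = l at e
  refine ⟨vv, l, by rintro rfl; simp [e] at hz, ?_, e⟩
  have := k y y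
  simp only [add_left, add_right, smul_left, smul_right, vv, e, star_mul', conj] at this
  exact mul_right_cancel₀ (mul_ne_zero hy (symm_ne hy)) (by linear_combination this)

lemma xin_of_ht (hk : KS P (F0 F)) (hU : ∀ g ∈ P, H6.gl0 g ∈ h.GU) (a : HT P v φ) (hv : v ≠ 0)
    (hφ : φ ≠ 0) : h.XIn (P.map H6.gl0.toMonoidHom) v := fun c hc => by
  obtain ⟨vv, l, l0, l1, e⟩ := flag_uni hU a hv hφ
  have b := hk.smul a (s := c / l) (by
    rw [mem_F0, star_div₀, eq_neg_of_add_eq_zero_right hc, eq_neg_of_add_eq_zero_right l1,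
      neg_div_neg_eq])
  refine ⟨_, b.mem, LinearEquiv.ext fun x => ?_⟩
  change (1 + TV.vv _ _) *ᵥ x = _
  rw [tv_mulVec, T_apply vv hc, smul_dotProduct, e, smul_eq_mul, ← mul_assoc, div_mul_cancel₀ _ l0]

lemma ks_le (hy : Hy P) (hk : KS P k) (hU : ∀ g ∈ P, H6.gl0 g ∈ h.GU) : k ≤ F0 F := fun s hs => by
  obtain ⟨v, φ, hv, hφ, a⟩ := hy.ex
  by_cases s0 : s = 0
  · rw [s0]; exact zero_mem _
  obtain ⟨-, l, l0, l1, e⟩ := flag_uni hU a hv hφ
  obtain ⟨-, m, m0, m1, e'⟩ := flag_uni hU (hk.smul a hs) hv (smul_ne_zero s0 hφ)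
  obtain ⟨y, hy⟩ := h.exists_ne hv
  have := e' y
  rw [smul_dotProduct, e, smul_eq_mul, ← mul_assoc] at this
  rw [← mul_right_cancel₀ hy this, star_mul', eq_neg_of_add_eq_zero_right l1] at m1
  exact mul_right_cancel₀ l0 (by linear_combination -m1)

theorem su_le (hy : Hy P) (hp : ⁅P, P⁆ = P)
    (htr : ∀ S : Subfield F, (∀ g ∈ P, (g : M4 F).trace ∈ S) → S = ⊤) (hk : KS P (F0 F))
    (hU : ∀ g ∈ P, H6.gl0 g ∈ h.GU) : h.SU ≤ P.map H6.gl0.toMonoidHom := by
  have hM : P.map H6.gl0.toMonoidHom ≤ h.SU := by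
    rintro _ ⟨g, hg, rfl⟩
    exact ⟨hU g hg, (H6.glEquiv_mem_SLV _ g).2 (det_of_perfect hp hg)⟩
  have op : Op h (P.map H6.gl0.toMonoidHom) := fun e y e0 y0 => by
    obtain ⟨ψ, hψ⟩ : ∃ ψ : V4 F, ∀ x, ψ ⬝ᵥ x = h x y := ⟨fun j => h (Pi.single j 1) y, fun x => by
      conv_rhs => rw [pi_eq_sum_univ' x, sum_left]
      simp [dotProduct, mul_comm]⟩
    obtain ⟨u, χ, a, b, c⟩ := hy.opp' e0 (ψ := ψ) (by
      rintro rfl
      exact y0 (h.nd fun x => by simp [← hψ]))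
    obtain ⟨uu, l, -, -, e'⟩ := flag_uni hU a (ne_of_dot b).2 (ne_of_dot c).1
    refine ⟨u, uu, xin_of_ht hk hU a (ne_of_dot b).2 (ne_of_dot c).1, symm_ne fun k => c ?_, hψ u ▸ b⟩
    rw [e', k, mul_zero]
  obtain ⟨e, f, w, c, t⟩ : ∃ e f w c, Tp h (P.map H6.gl0.toMonoidHom) e f w c := by
    by_contra H
    obtain ⟨a, ha⟩ := NStar.exists_ne (F := F)
    refine ha (htr (F0 F) (fun g hg => hy.trace_mem hk.pair
      (fun v φ w ψ u χ a b c => by_contra fun k => ?_) hg) ▸ Subfield.mem_top a : a ∈ F0 F)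
    have k0 : φ ⬝ᵥ w * ψ ⬝ᵥ u * χ ⬝ᵥ v ≠ 0 := fun e => k (e ▸ zero_mem _)
    simp only [ne_eq, mul_eq_zero, not_or] at k0
    have n1 := ne_of_dot k0.1.1; have n2 := ne_of_dot k0.1.2; have n3 := ne_of_dot k0.2
    obtain ⟨vv, l, -, l1, e1⟩ := flag_uni hU a n3.2 n1.1
    obtain ⟨ww, m, -, m1, e2⟩ := flag_uni hU b n1.2 n2.1
    obtain ⟨uu, n, -, o1, e3⟩ := flag_uni hU c n2.2 n3.1
    refine H (exists_tp vv ww uu (xin_of_ht hk hU a n3.2 n1.1) (xin_of_ht hk hU b n1.2 n2.1)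
      (xin_of_ht hk hU c n2.2 n3.1) fun z => k ?_)
    rw [mem_F0, e1, e2, e3]
    simp only [star_mul', conj, eq_neg_of_add_eq_zero_right l1, eq_neg_of_add_eq_zero_right m1,
      eq_neg_of_add_eq_zero_right o1] at z ⊢
    linear_combination (-l * m * n) * z
  by_cases hq : ∃ t : F, star t = t ∧ t ≠ 0 ∧ t ≠ 1
  · exact t.big hq hM op
  replace hq : ∀ t : F, star t = t → t = 0 ∨ t = 1 := fun t ht => by
    by_contra! k
    exact hq ⟨t, ht, k⟩
  refine (t.four hq hM op (by simp)).resolve_right fun ⟨b, hb, H⟩ => mono_false hy hp b hb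
    fun v φ a j => ?_
  by_cases hv : v = 0
  · exact ⟨j, 1, by simp [hv]⟩
  by_cases hφ : φ = 0
  · exact ⟨j, 1, by simp [hφ]⟩
  obtain ⟨vv, l, l0, l1, e1⟩ := flag_uni hU a hv hφ
  obtain rfl := (hq l (by linear_combination l1 - l * two_eq_zero_of_F4 hq)).resolve_left l0
  rw [e1, one_mul]
  exact H v vv (xin_of_ht hk hU a hv hφ) j

end

/-- a residual core in dimension four containing a transvection: unitary version -/
theorem tv4_uni {F : Type*} [Field F] [Fintype F] {q : ℕ} (hF : Fintype.card F = q ^ 2)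
    {H P : Subgroup (GL4 F)} (hc : IsResidualCore H P) (hU : P ≤ GU 4 F q)
    (ht : ∃ v φ, v ≠ 0 ∧ φ ≠ 0 ∧ HT P v φ) : GU 4 F q ⊓ specialLinear (Fin 4) F ≤ P ∨
      ∃ f, IsSymplecticForm f ∧ FixesForm (matrixSet P) f := by
  let _ := powStar hF
  have := powStar_nstar hF
  have hy := hy_of_core hc ht
  rcases core hy hc.perfect (htr_of_core hc) with a | a | ⟨k, hk, -, -, -, a⟩
  · exact Or.inl (inf_le_right.trans a)
  · exact Or.inr a
  have hU' : ∀ g ∈ P, H6.gl0 g ∈ (stdHF (Fin 4) F).GU := fun g hg => (mem_GU_iff hF 4 g).1 (hU hg)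
  have h1 : 1 < Nat.card k := Finite.one_lt_card
  have h2 : Fintype.card F - 1 ∣ Nat.card k ^ 2 - 1 :=
    (FiniteField.forall_pow_eq_one_iff F _).1 fun x => Units.ext (by
      have := a x
      rw [← pow_mul, ← sq, ← Nat.sub_add_cancel (Nat.one_le_pow 2 _ (by omega : 0 < Nat.card k)),
        pow_succ] at this
      simpa using this)
  have h3 := Nat.le_of_dvd (by have := Nat.one_lt_pow two_ne_zero h1; omega) h2
  have h4 : q ≤ Nat.card k := by
    by_contra! e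
    have := Nat.pow_lt_pow_left e two_ne_zero
    have := Nat.one_lt_pow two_ne_zero h1
    omega
  obtain rfl : k = F0 F := SetLike.coe_injective (Set.eq_of_subset_of_ncard_le (ks_le hy hk hU')
    (by rw [← Nat.card_coe_set_eq, ← Nat.card_coe_set_eq]; exact (card_F0 hF).le.trans h4))
  refine Or.inl fun g hg => ?_
  obtain ⟨x, hx, e⟩ := su_le hy hc.perfect (htr_of_core hc) hk hU'
    (show H6.gl0 g ∈ _ from ⟨(mem_GU_iff hF 4 g).1 hg.1, (H6.glEquiv_mem_SLV _ g).2 hg.2⟩)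
  exact H6.gl0.injective e ▸ hx

end Cfsg.Agent.H4.TV
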