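import Cfsg.Agent.H4.TV.T1

/-! Groups generated by transvections in dimension four: the field of the root groups. -/

set_option autoImplicit false
set_option linter.unusedSectionVars false
set_option linter.unusedVariables false
set_option linter.unnecessarySimpa false
set_option linter.style.haveILetI false
set_option linter.unusedSimpArgs false

namespace Cfsg.Agent.H4.TV

open Cfsg.Geo Matrix
open Cfsg.Agent.H7.PA (up lo)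
open scoped MatrixGroups

variable {F : Type*} [Field F] {P Q : Subgroup (GL4 F)} {u v w y φ ψ χ η : V4 F}

lemma exists_perp (a b c : V4 F) : ∃ x, x ≠ 0 ∧ a ⬝ᵥ x = 0 ∧ b ⬝ᵥ x = 0 ∧ c ⬝ᵥ x = 0 := by
  obtain ⟨x, hx, e⟩ := (exists_mulVec_eq_zero_iff (M := of ![a, b, c, 0])).2
    (det_eq_zero_of_row_eq_zero 3 fun j => rfl)
  exact ⟨x, hx, congrFun e 0, congrFun e 1, congrFun e 2⟩

/-- all pair traces lie in `S` -/
def Pr (P : Subgroup (GL4 F)) (S : Set F) : Prop :=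
  ∀ ⦃v φ w ψ : V4 F⦄, HT P v φ → HT P w ψ → φ ⬝ᵥ w * ψ ⬝ᵥ v ∈ S

/-- elements of a Heisenberg group -/
def HH (P : Subgroup (GL4 F)) (y η x ξ : V4 F) : Prop :=
  η ⬝ᵥ x = 0 ∧ ξ ⬝ᵥ y = 0 ∧ ∃ g ∈ P, (g : M4 F) = 1 + vv x η + vv y ξ

lemma HH.conj {x ξ : V4 F} (h : HH P y η x ξ) (a : HT P v φ) (e1 : φ ⬝ᵥ y = 0) (e2 : η ⬝ᵥ v = 0) :
    HH P y η (x + (φ ⬝ᵥ x) • v) (ξ - (ξ ⬝ᵥ v) • φ) := by
  obtain ⟨h1, h2, g, hg, e⟩ := h
  refine ⟨by simp [h1, e2], by simp [h2, e1], _, P.mul_mem (P.mul_mem a.mem hg) (P.inv_mem a.mem), ?_⟩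
  rw [Units.val_mul, Units.val_mul, e, mul_add, mul_add, add_mul, add_mul, mul_one, Units.mul_inv,
    conj_vv, conj_vv, tvU_val, tvU_inv, tv_mulVec, tv_mulVec, vecMul_tv, vecMul_tv, e1, e2]
  simp [sub_eq_add_neg]

lemma HH.comm {x ξ x' ξ' : V4 F} (h : HH P y η x ξ) (h' : HH P y η x' ξ') (e : η ⬝ᵥ y = 0) :
    HT P y ((ξ ⬝ᵥ x' - ξ' ⬝ᵥ x) • η) := by
  obtain ⟨h1, h2, g, hg, e1⟩ := h
  obtain ⟨h1', h2', g', hg', e2⟩ := h'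
  refine ⟨by simp [e], _, P.mul_mem (P.mul_mem hg hg') (P.inv_mem (P.mul_mem hg' hg)), ?_⟩
  rw [Units.val_mul, Units.mul_inv_eq_iff_eq_mul, Units.val_mul, Units.val_mul, e1, e2]
  simp only [mul_add, add_mul, mul_one, one_mul, vv_mul_vv, vv_smul, h1, h2, h1', h2', e, zero_smul,
    smul_mul_assoc, mul_smul_comm, smul_zero, add_zero]
  module

lemma no25_std [Finite F] (hy : Hy P) (h3 : (3 : F) = 0) (h5 : Pr P {z | z ^ 5 = z})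
    (hT : ∀ ⦃v φ : V4 F⦄ ⦃s : F⦄, HT P v φ → HT P v (s • φ) → v ≠ 0 → φ ≠ 0 → s ^ 3 = s) {i : F}
    (hi2 : i * i = -1) {v₁ v₂ e₀ e₁ : V4 F} (p1 : e₀ ⬝ᵥ v₁ = 1) (p2 : e₀ ⬝ᵥ v₂ = 0) (p3 : e₁ ⬝ᵥ v₁ = 0)
    (p4 : e₁ ⬝ᵥ v₂ = 1) (h1 : HT P v₁ e₁) (h2 : HT P v₂ (i • e₀)) : False := by
  have i0 : i ≠ 0 := by rintro rfl; simp at hi2
  have i3 : i ^ 3 ≠ i := fun e => i0 (by linear_combination e - i * hi2 + i * h3)
  have ml : ∀ x y s : F, HT P v₂ (s • e₀) → HT P (x • v₁ + y • v₂) (-y • e₀ + x • e₁) →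
      HT P (x • v₁ + (y + s * x) • v₂) (-(y + s * x) • e₀ + x • e₁) := fun x y s a b => by
    convert b.conjT a using 1 <;> simp [p1, p2, p3, p4] <;> module
  have mu : ∀ x y : F, HT P (x • v₁ + y • v₂) (-y • e₀ + x • e₁) →
      HT P ((x + y) • v₁ + y • v₂) (-y • e₀ + (x + y) • e₁) := fun x y b => by
    convert b.conjT h1 using 1 <;> simp [p1, p2, p3, p4] <;> module
  have a0 : HT P ((1 : F) • v₁ + (0 : F) • v₂) (-(0 : F) • e₀ + (1 : F) • e₁) := by simpa using h1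
  have a1 := ml _ _ _ h2 a0
  have a2 := ml _ _ (-i) (by simpa using h2.neg) a0
  have a3 := h2.conjT h1
  obtain ⟨θ, θ0, θ1, θ2, -⟩ := exists_perp v₁ v₂ 0
  rw [dotProduct_comm] at θ1 θ2
  have n1 : v₁ ≠ 0 := (ne_of_dot (p1 ▸ one_ne_zero : e₀ ⬝ᵥ v₁ ≠ 0)).2
  have n2 : e₁ ≠ 0 := (ne_of_dot (p4 ▸ one_ne_zero : e₁ ⬝ᵥ v₂ ≠ 0)).1
  obtain ⟨c, χ, h, c1, c2⟩ := hy.opp' n1 θ0
  have b0 : _ ^ 5 = _ := h5 h1 h
  have b1 : _ ^ 5 = _ := h5 h2.neg h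
  have b2 : _ ^ 5 = _ := h5 a1 h
  have b3 : _ ^ 5 = _ := h5 a2 h
  have b4 : _ ^ 5 = _ := h5 (mu _ _ a1) h
  have b5 : _ ^ 5 = _ := h5 (mu _ _ a2) h
  have key := H7.PA.f9 h3 hi2 b0 b1 b2 (fun z hz => by
    simp only [List.mem_cons, List.not_mem_nil, or_false] at hz
    rcases hz with rfl | rfl | rfl
    · convert b3 using 1 <;> [congr 1; skip] <;> simp <;> (clear * - hi2; grind)
    · convert b4 using 1 <;> [congr 1; skip] <;> simp <;> (clear * - hi2; grind)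
    · convert b5 using 1 <;> [congr 1; skip] <;> simp <;> (clear * - hi2; grind))
  have k0 : e₀ ⬝ᵥ c * χ ⬝ᵥ v₁ + e₁ ⬝ᵥ c * χ ⬝ᵥ v₂ = 0 := by
    simp at key
    refine pow_eq_zero_iff two_ne_zero |>.1 ?_
    clear * - key hi2
    grind
  clear key b0 b1 b2 b3 b4 b5
  obtain ⟨x, hx⟩ : ∃ x, x = (e₀ ⬝ᵥ c) • v₁ + (e₁ ⬝ᵥ c) • v₂ := ⟨_, rfl⟩
  obtain ⟨ξ, hξ⟩ : ∃ ξ, ξ = (χ ⬝ᵥ v₁) • e₀ + (χ ⬝ᵥ v₂) • e₁ := ⟨_, rfl⟩
  obtain ⟨y, hy'⟩ : ∃ y, y = c - x := ⟨_, rfl⟩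
  obtain ⟨η, hη⟩ : ∃ η, η = χ - ξ := ⟨_, rfl⟩
  have y0 : e₀ ⬝ᵥ y = 0 := by simp [hy', hx, p1, p2]
  have y1 : e₁ ⬝ᵥ y = 0 := by simp [hy', hx, p3, p4]
  have η1 : η ⬝ᵥ v₁ = 0 := by simp [hη, hξ, p1, p3]
  have η2 : η ⬝ᵥ v₂ = 0 := by simp [hη, hξ, p2, p4]
  have x0 : e₀ ⬝ᵥ x = e₀ ⬝ᵥ c := by simp [hx, p1, p2]
  have x1 : e₁ ⬝ᵥ x = e₁ ⬝ᵥ c := by simp [hx, p3, p4]
  have ξ1 : ξ ⬝ᵥ v₁ = χ ⬝ᵥ v₁ := by simp [hξ, p1, p3]
  have ξ2 : ξ ⬝ᵥ v₂ = χ ⬝ᵥ v₂ := by simp [hξ, p2, p4]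
  have ηx : η ⬝ᵥ x = 0 := by simp [hx, η1, η2]
  have ξy : ξ ⬝ᵥ y = 0 := by simp [hξ, y0, y1]
  have ξx : ξ ⬝ᵥ x = 0 := by rw [hx]; simpa [ξ1, ξ2] using k0
  have hc : c = x + y := by simp [hy']
  have hχ : χ = ξ + η := by simp [hη]
  have ηy : η ⬝ᵥ y = 0 := by have := h.1; rw [hc, hχ] at this; simpa [ηx, ξy, ξx] using this
  have yn : y ≠ 0 := fun e => c1 (by rw [hc, e, hx]; simp [θ1, θ2])
  obtain ⟨α, hα, β, hβ, z, hz, ez, z0, z1, z2, z3⟩ : (up 1 * lo i) ^ 5 ∈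
      Pl P v₁ v₂ (Submodule.span F {e₁, e₀}) := pow_mem (mul_mem
    (by simpa [p4] using up_mem h1 (Submodule.subset_span (by simp)) v₂)
    (by simpa [p1] using lo_mem h2 (Submodule.smul_mem _ _ (Submodule.subset_span (by simp))) v₁)) 5
  have k1 := pair_eq p3 p2 (p4 ▸ one_ne_zero) (p1 ▸ one_ne_zero) hα
  have k2 := pair_eq p3 p2 (p4 ▸ one_ne_zero) (p1 ▸ one_ne_zero) hβ
  simp [pow_succ, mul_apply, Fin.sum_univ_two] at z0 z1 z2 z3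
  have z0' : α ⬝ᵥ v₁ = 1 := by clear * - z0 hi2 h3; grind
  have z1' : α ⬝ᵥ v₂ = 0 := by clear * - z1 hi2 h3; grind
  have z2' : β ⬝ᵥ v₁ = 0 := by clear * - z2 hi2 h3; grind
  have z3' : β ⬝ᵥ v₂ = 1 := by clear * - z3 hi2 h3; grind
  simp [z0', z1', z2', z3', p1, p4] at k1 k2
  rw [k1, k2] at ez
  have hH : HH P y η (-x) (-ξ) := by
    have d := h.conj hz
    have d1 : (z : M4 F) *ᵥ c = y - x := by
      rw [ez, add_mulVec, tv_mulVec, vv_mulVec, add_assoc, ← hx, hc]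
      linear_combination (norm := module) h3 • x
    have d2 : χ ᵥ* ((z⁻¹ : GL4 F) : M4 F) = η - ξ := by
      rw [show χ = (η - ξ) ᵥ* (z : M4 F) by
        rw [ez, vecMul_add, vecMul_tv, vecMul_vv]
        simp only [sub_dotProduct, η1, η2, ξ1, ξ2, zero_sub, neg_smul]
        linear_combination (norm := module) hχ + (2 : F) • hξ +
          h3 • ((χ ⬝ᵥ v₁) • e₀ + (χ ⬝ᵥ v₂) • e₁)]
      simp
    rw [d1, d2] at d
    refine ⟨by simp [ηx], by simp [ξy], _, P.mul_mem h.mem d.neg.mem, ?_⟩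
    rw [Units.val_mul, tvU_val, tvU_val, tv_mul_tv, hc, hχ]
    simp only [add_dotProduct, dotProduct_sub, ξy, ξx, ηy, ηx, vv_add, add_vv, vv_sub, sub_vv, vv_neg,
      neg_vv, neg_sub, sub_zero, add_zero, zero_smul]
    linear_combination (norm := module) h3 • (vv x η + vv y ξ)
  have fin : vv x η = 0 → False := fun e => by
    obtain ⟨-, -, g, hg, eg⟩ := hH
    have d : HT P y (-ξ) := ⟨by simp [ξy], g, hg, by rw [eg, neg_vv, e]; simp⟩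
    have d1 := h1.comm d y1
    have d2 := (h2.comm d1 (by simp [y0]))
    have d3 := h1.comm d2 y1
    simp only [neg_dotProduct, ξ1, smul_dotProduct, p4, p1, smul_eq_mul, mul_one, smul_smul] at d1 d3
    exact i3 (hT d1 (by rwa [smul_smul, mul_comm]) yn (smul_ne_zero (neg_ne_zero.2 c2) n2))
  by_cases ηn : η = 0
  · exact fin (by simp [ηn])
  have zz : ∀ v φ, HT P v φ → φ ⬝ᵥ y = 0 → η ⬝ᵥ v = 0 → HT P y ((φ ⬝ᵥ x * ξ ⬝ᵥ v) • η) := fun v φ a b c => by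
    have := (hH.comm (hH.conj a b c) ηy).neg
    rw [← neg_smul] at this
    convert this using 2
    simp
    linear_combination (φ ⬝ᵥ x * ξ ⬝ᵥ v) * h3
  have kill : ∀ s : F, HT P y (s • η) → HT P y ((i * s) • η) → s = 0 := fun s a b => by_contra fun s0 =>
    i3 (hT a (by rwa [smul_smul]) yn (smul_ne_zero s0 ηn))
  have A := zz _ _ h1 y1 η1
  have B := zz _ _ h2 (by simp [y0]) η2
  have C := zz _ _ a1 (by simp [y0, y1]) (by simp [η1, η2])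
  have D := zz _ _ a2 (by simp [y0, y1]) (by simp [η1, η2])
  have E := zz _ _ a3 (by simp [y0, y1]) (by simp [η1, η2])
  simp only [add_dotProduct, dotProduct_add, smul_dotProduct, dotProduct_smul, sub_dotProduct, x0, x1,
    ξ1, ξ2, smul_eq_mul, p1, p4] at A B C D E
  have s1 : e₀ ⬝ᵥ c * χ ⬝ᵥ v₂ = 0 := kill _ (by
    convert (A.add A).sub (C.add D) using 1
    rw [← add_smul, ← add_smul, ← sub_smul]
    congr 1
    clear * - hi2 h3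
    grind) (by convert B using 2; ring)
  have s2 : e₀ ⬝ᵥ c = 0 := by
    by_contra k
    simp [(mul_eq_zero.1 s1).resolve_left k, k, c2] at k0
  have s3 : e₁ ⬝ᵥ c * χ ⬝ᵥ v₂ = 0 := by simpa [s2] using k0
  have s4 : e₁ ⬝ᵥ c * χ ⬝ᵥ v₁ = 0 := kill _ A (by
    have := E.neg
    rw [← neg_smul] at this
    convert this using 2
    rw [s2]
    linear_combination (-i) * s3)
  exact fin (by simp [hx, s2, (mul_eq_zero.1 s4).resolve_right c2])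

lemma no25 [Finite F] (hy : Hy P) (h3 : (3 : F) = 0) (h5 : Pr P {z | z ^ 5 = z})
    (hT : ∀ ⦃v φ : V4 F⦄ ⦃s : F⦄, HT P v φ → HT P v (s • φ) → v ≠ 0 → φ ≠ 0 → s ^ 3 = s)
    (h : HT P v φ) (h' : HT P w ψ) : φ ⬝ᵥ w * ψ ⬝ᵥ v * (φ ⬝ᵥ w * ψ ⬝ᵥ v) ≠ -1 := fun e => by
  have h1 : φ ⬝ᵥ w ≠ 0 := fun k => by simp [k] at e
  have h2 : ψ ⬝ᵥ v ≠ 0 := fun k => by simp [k] at e
  refine no25_std hy h3 h5 hT e (v₂ := (φ ⬝ᵥ w)⁻¹ • w) (e₀ := (ψ ⬝ᵥ v)⁻¹ • ψ) (by simp [h2])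
    (by simp [h'.1]) h.1 (by simp [h1]) h ?_
  rw [smul_smul, mul_assoc, mul_inv_cancel₀ h2, mul_one]
  exact h'.resc h1

/-- the root groups are lines over `k` -/
structure KS (P : Subgroup (GL4 F)) (k : Subfield F) : Prop where
  smul : ∀ ⦃v φ : V4 F⦄ ⦃s : F⦄, HT P v φ → s ∈ k → HT P v (s • φ)
  pair : Pr P k
  conv : ∀ ⦃v φ : V4 F⦄ ⦃s : F⦄, HT P v φ → HT P v (s • φ) → v ≠ 0 → φ ≠ 0 → s ∈ k

/-- root groups of order two -/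
structure Two (P : Subgroup (GL4 F)) : Prop where
  two : (2 : F) = 0
  T : ∀ ⦃v φ : V4 F⦄ ⦃s : F⦄, HT P v φ → HT P v (s • φ) → v ≠ 0 → φ ≠ 0 → s = 0 ∨ s = 1

lemma Two.cj (h : Two P) (g : GL4 F) : Two (cjP P g) :=
  ⟨h.two, fun v φ s a b hv hφ => h.T a.of_cj (smul_vecMul s φ _ ▸ b.of_cj) (gl_ne _ hv) (gl_ne' _ hφ)⟩

lemma Two.tr (h : Two P) : Two (trP P) :=
  ⟨h.two, fun v φ s a b hv hφ => h.T (ht_tr.1 a) (ht_smul.1 (ht_tr.1 b)) hφ hv⟩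

variable [Finite F]

theorem exists_KS (hy : Hy P) (h : HT P v φ) (hv : v ≠ 0) (hφ : φ ≠ 0)
    (h3 : 3 ≤ nT P v φ) : ∃ k, KS P k := by
  have hc : ∀ {v φ} {k : Subfield F}, (∀ s, HT P v (s • φ) ↔ s ∈ k) → nT P v φ = Nat.card k :=
    fun e => Nat.card_congr (Equiv.subtypeEquivRight e)
  have op := fun v' φ' w ψ (a : HT P v' φ') (b : HT P w ψ) (c : φ' ⬝ᵥ w ≠ 0) (d : ψ ⬝ᵥ v' ≠ 0) =>
    opp_core a b c d (hy.nT_eq h hv hφ a (ne_of_dot d).2 (ne_of_dot c).1 ▸ h3)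
  by_cases h4 : (3 : F) = 0 ∧ nT P v φ = 3
  · haveI : CharP F 3 := (CharP.charP_iff_prime_eq_zero Nat.prime_three).2 (by exact_mod_cast h4.1)
    haveI := Fact.mk Nat.prime_three
    have h5 : Pr P {z | z ^ 5 = z} := fun v' φ' w ψ a b => by
      by_cases c : φ' ⬝ᵥ w = 0
      · simp [c]
      by_cases d : ψ ⬝ᵥ v' = 0
      · simp [d]
      rcases op _ _ _ _ a b c d with ⟨k, e, e'⟩ | e
      · rw [H7.mem_subfield_iff_pow, ← hc e, ← hy.nT_eq h hv hφ a (ne_of_dot d).2 (ne_of_dot c).1,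
          h4.2] at e'
        change _ ^ 5 = _
        rw [show 5 = 2 + 3 by rfl, pow_add, e', ← pow_succ, e']
      · exact e.2.2
    have hT : ∀ ⦃v φ : V4 F⦄ ⦃s : F⦄, HT P v φ → HT P v (s • φ) → v ≠ 0 → φ ≠ 0 →
        s ∈ (⊥ : Subfield F) := fun w ψ s a b hw hψ => by
      have := Function.Injective.bijective_of_nat_card_le
        (f := fun t : (⊥ : Subfield F) => (⟨t, a.bot 3 t.2⟩ : {s : F // HT P w (s • ψ)}))
        (fun x y e => Subtype.ext (Subtype.mk.inj e)) (by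
          rw [Subfield.card_bot F 3, ← h4.2, hy.nT_eq h hv hφ a hw hψ]; rfl)
      obtain ⟨t, ht⟩ := this.2 ⟨s, b⟩
      exact (Subtype.mk.inj ht : (t : F) = s) ▸ t.2
    refine ⟨⊥, ⟨fun v φ s a b => a.bot 3 b, fun v φ w ψ a b => ?_, hT⟩⟩
    have k1 : _ ^ 5 = _ := h5 a b
    have k2 := no25 hy h4.1 h5 (fun v φ s a b hv hφ =>
      (Subfield.mem_bot_iff_pow_eq_self F 3).1 (hT a b hv hφ)) a b
    rw [SetLike.mem_coe, Subfield.mem_bot_iff_pow_eq_self F 3]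
    generalize φ ⬝ᵥ w * ψ ⬝ᵥ v = z at *
    exact sub_eq_zero.1 (mul_left_cancel₀ (add_eq_zero_iff_eq_neg.not.2 k2) (by linear_combination k1))
  have op' := fun v' φ' w ψ (a : HT P v' φ') (b : HT P w ψ) (c : φ' ⬝ᵥ w ≠ 0) (d : ψ ⬝ᵥ v' ≠ 0) =>
    (op _ _ _ _ a b c d).resolve_right fun e =>
      h4 ⟨e.1, (hy.nT_eq h hv hφ a (ne_of_dot d).2 (ne_of_dot c).1).trans e.2.1⟩
  obtain ⟨w, ψ, a, b, c⟩ := hy.opp' hv hφ
  obtain ⟨k, e, -⟩ := op' _ _ _ _ h a b c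
  have all : ∀ v' φ', HT P v' φ' → v' ≠ 0 → φ' ≠ 0 → ∀ s, HT P v' (s • φ') ↔ s ∈ k :=
    fun v' φ' a' hv' hφ' => by
      obtain ⟨w, ψ, a, b, c⟩ := hy.opp' hv' hφ'
      obtain ⟨k', e', -⟩ := op' _ _ _ _ a' a b c
      rwa [← H7.PA.subfield_eq_of_card ((hc e').symm.trans ((hy.nT_eq a' hv' hφ' h hv hφ).trans (hc e)))]
  refine ⟨k, ⟨fun v' φ' s a' hs => ?_, fun v' φ' w ψ a b => ?_,
    fun v' φ' s a b hv' hφ' => (all _ _ a hv' hφ' s).1 b⟩⟩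
  · by_cases hv' : v' = 0
    · exact hv' ▸ ht_zero' _
    by_cases hφ' : φ' = 0
    · simpa [hφ'] using ht_zero v'
    exact (all _ _ a' hv' hφ' s).2 hs
  · by_cases c : φ' ⬝ᵥ w = 0
    · simp [c]
    by_cases d : ψ ⬝ᵥ v' = 0
    · simp [d]
    obtain ⟨k', e', e''⟩ := op' _ _ _ _ a b c d
    rwa [H7.PA.subfield_eq_of_card ((hc e').symm.trans
      ((hy.nT_eq a (ne_of_dot d).2 (ne_of_dot c).1 h hv hφ).trans (hc e)))] at e''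

lemma two_of_nT (hy : Hy P) (h : HT P v φ) (hv : v ≠ 0) (hφ : φ ≠ 0)
    (h3 : ¬ 3 ≤ nT P v φ) : Two P := by
  have k : ∀ ⦃v φ : V4 F⦄ ⦃s : F⦄, HT P v φ → HT P v (s • φ) → v ≠ 0 → φ ≠ 0 → s = 0 ∨ s = 1 := by
    intro w ψ s a b hw hψ
    by_contra! e
    rw [hy.nT_eq h hv hφ a hw hψ] at h3
    exact h3 (H7.PA.three_le (a := ⟨0, by simpa using ht_zero w⟩) (b := ⟨1, by simpa using a⟩)
      (c := ⟨s, b⟩) (by simp) (by simp [e.1.symm]) (by simp [e.2.symm]))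
  refine ⟨?_, k⟩
  rcases k h (s := -1) (by simpa using h.neg) hv hφ with e | e
  · simp at e
  · linear_combination -e

theorem Hy.KS_or (hy : Hy P) : (∃ k, KS P k) ∨ (Two P ∧ ∃ v φ w ψ, HT P v φ ∧ HT P w ψ ∧
    φ ⬝ᵥ w * ψ ⬝ᵥ v ≠ 0 ∧ φ ⬝ᵥ w * ψ ⬝ᵥ v ≠ 1) := by
  obtain ⟨v, φ, hv, hφ, h⟩ := hy.ex
  by_cases h3 : 3 ≤ nT P v φ
  · exact Or.inl (exists_KS hy h hv hφ h3)
  have t := two_of_nT hy h hv hφ h3
  refine or_iff_not_imp_right.2 fun k => ?_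
  push Not at k
  haveI : CharP F 2 := CharTwo.of_one_ne_zero_of_two_eq_zero one_ne_zero t.two
  refine ⟨⊥, fun v φ s a b => a.bot 2 b, fun v φ w ψ a b => ?_, fun v φ s a b hv hφ => ?_⟩
  · by_cases e : φ ⬝ᵥ w * ψ ⬝ᵥ v = 0
    · rw [e]; exact zero_mem _
    · rw [k t v φ w ψ a b e]; exact one_mem _
  · rcases t.T a b hv hφ with rfl | rfl
    exacts [zero_mem _, one_mem _]

end Cfsg.Agent.H4.TV
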