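import Cfsg.Agent.H4.TV.T2

/-! Groups generated by transvections in dimension four: cycles, traces and invariant forms. -/

set_option autoImplicit false
set_option linter.unusedSectionVars false
set_option linter.unusedVariables false
set_option linter.unnecessarySimpa false
set_option linter.style.haveILetI false
set_option linter.unusedSimpArgs false

namespace Cfsg.Agent.H4.TV

open Cfsg.Geo Matrix
open scoped MatrixGroups

variable {F : Type*} [Field F] {P Q : Subgroup (GL4 F)} {u v w y φ ψ χ η : V4 F}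

/-- orthogonality of flags is symmetric -/
def AO (P : Subgroup (GL4 F)) : Prop :=
  ∀ ⦃v φ w ψ : V4 F⦄, HT P v φ → HT P w ψ → φ ≠ 0 → w ≠ 0 → φ ⬝ᵥ w = 0 → ψ ⬝ᵥ v = 0

/-- triple traces are skew -/
def Tri (P : Subgroup (GL4 F)) (σ : F →+* F) : Prop :=
  ∀ ⦃v φ w ψ u χ : V4 F⦄, HT P v φ → HT P w ψ → HT P u χ →
    σ (φ ⬝ᵥ w * ψ ⬝ᵥ u * χ ⬝ᵥ v) = -(φ ⬝ᵥ u * χ ⬝ᵥ w * ψ ⬝ᵥ v)

variable {k : Subfield F}

lemma KS.diff (hk : KS P k) (h1 : HT P v φ) (h2 : HT P w ψ) (h3 : HT P u χ) :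
    φ ⬝ᵥ w * ψ ⬝ᵥ u * χ ⬝ᵥ v - φ ⬝ᵥ u * χ ⬝ᵥ w * ψ ⬝ᵥ v ∈ k := by
  convert k.sub_mem (k.sub_mem (hk.pair h1 h3) (k.mul_mem (hk.pair h1 h2) (hk.pair h2 h3)))
    (hk.pair (h1.conjT h2) h3) using 1
  simp
  ring

lemma KS.prod (hk : KS P k) (h1 : HT P v φ) (h2 : HT P w ψ) (h3 : HT P u χ) :
    φ ⬝ᵥ w * ψ ⬝ᵥ u * χ ⬝ᵥ v * (φ ⬝ᵥ u * χ ⬝ᵥ w * ψ ⬝ᵥ v) ∈ k := by
  convert k.mul_mem (k.mul_mem (hk.pair h1 h2) (hk.pair h2 h3)) (hk.pair h1 h3) using 1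
  ring

lemma AO.cyc (ho : AO P) (h1 : HT P v φ) (h2 : HT P w ψ) (h3 : HT P u χ)
    (e : φ ⬝ᵥ u * χ ⬝ᵥ w * ψ ⬝ᵥ v = 0) : φ ⬝ᵥ w * ψ ⬝ᵥ u * χ ⬝ᵥ v = 0 := by
  by_contra e'
  simp only [ne_eq, mul_eq_zero, not_or] at e e'
  rcases e with (e | e) | e
  · exact e'.2 (ho h1 h3 (ne_of_dot e'.1.1).1 (ne_of_dot e'.1.2).2 e)
  · exact e'.1.2 (ho h3 h2 (ne_of_dot e'.2).1 (ne_of_dot e'.1.1).2 e)
  · exact e'.1.1 (ho h2 h1 (ne_of_dot e'.1.2).1 (ne_of_dot e'.2).2 e)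

lemma KS.tri (hk : KS P k) (ho : AO P) {σ : F →+* F} (hσ : ∀ x, σ x = x ↔ x ∈ k) : Tri P σ := by
  intro v φ w ψ u χ h1 h2 h3
  have hd := hk.diff h1 h2 h3
  by_cases e : φ ⬝ᵥ u * χ ⬝ᵥ w * ψ ⬝ᵥ v = 0
  · simp [e, ho.cyc h1 h2 h3 e]
  by_cases ha : φ ⬝ᵥ w * ψ ⬝ᵥ u * χ ⬝ᵥ v ∈ k
  · have e' : φ ⬝ᵥ u * χ ⬝ᵥ w * ψ ⬝ᵥ v ∈ k := by simpa using k.sub_mem ha hd
    rw [(hσ _).2 ha]
    simp only [ne_eq, mul_eq_zero, not_or] at e
    have a := hk.smul h2 (k.neg_mem (k.div_mem (hk.pair h1 h3) e'))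
    have := ho h3 (h1.conjT a) (ne_of_dot e.1.2).1 (conjT_ne' (ne_of_dot e.2).2 a.1) (by
      simp only [dotProduct_add, dotProduct_smul, smul_dotProduct, smul_eq_mul]
      have := e.1.1; have := e.1.2; have := e.2
      field_simp
      ring)
    simp only [sub_dotProduct, smul_dotProduct, smul_eq_mul] at this
    have e1 := e.1.1; have e2 := e.1.2; have e3 := e.2
    field_simp at this
    linear_combination this
  have hm := hk.prod h1 h2 h3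
  rw [← hσ] at ha hd hm
  generalize φ ⬝ᵥ w * ψ ⬝ᵥ u * χ ⬝ᵥ v = a at *
  generalize φ ⬝ᵥ u * χ ⬝ᵥ w * ψ ⬝ᵥ v = b at *
  rw [map_sub] at hd
  rw [map_mul] at hm
  exact eq_neg_of_add_eq_zero_left (mul_left_cancel₀ (sub_ne_zero.2 ha)
    (by linear_combination σ a * hd + hm))

/-! ### cycles -/

/-- product of rank one matrices -/
def pr (L : List (V4 F × V4 F)) : M4 F := (L.map fun p => vv p.1 p.2).prod

@[simp] lemma pr_nil : pr ([] : List (V4 F × V4 F)) = 1 := rfl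

@[simp] lemma pr_cons (p : V4 F × V4 F) (L : List (V4 F × V4 F)) : pr (p :: L) = vv p.1 p.2 * pr L := rfl

@[simp] lemma pr_append (L M : List (V4 F × V4 F)) : pr (L ++ M) = pr L * pr M := by
  simp [pr]

/-- lists of flags -/
def OK (P : Subgroup (GL4 F)) (L : List (V4 F × V4 F)) : Prop := ∀ p ∈ L, HT P p.1 p.2

lemma ok_cons {p : V4 F × V4 F} {L : List (V4 F × V4 F)} : OK P (p :: L) ↔ HT P p.1 p.2 ∧ OK P L :=
  List.forall_mem_cons

lemma ok_snoc {p : V4 F × V4 F} {L : List (V4 F × V4 F)} : OK P (L ++ [p]) ↔ HT P p.1 p.2 ∧ OK P L := by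
  simp [OK, or_imp, forall_and, and_comm]

lemma cyc_ind {Φ : List (V4 F × V4 F) → Prop} (h0 : Φ []) (h1 : ∀ p, OK P [p] → Φ [p])
    (h2 : ∀ p q, OK P [p, q] → Φ [p, q]) (rot : ∀ p L, Φ (p :: L) ↔ Φ (L ++ [p]))
    (swap : ∀ p q L, OK P (p :: q :: L) → Φ (p :: L) → Φ (q :: L) →
      Φ ((q.1 + (p.2 ⬝ᵥ q.1) • p.1, q.2 - (q.2 ⬝ᵥ p.1) • p.2) :: L) → Φ (q :: p :: L) → Φ (p :: q :: L))
    (zero : ∀ p q L, OK P (p :: q :: L) → p.2 ⬝ᵥ q.1 = 0 → Φ (p :: q :: L))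
    (fac : ∀ p q r L, OK P (p :: q :: r :: L) → p.2 ⬝ᵥ r.1 ≠ 0 → r.2 ⬝ᵥ p.1 ≠ 0 → Φ (p :: r :: L) →
      Φ (p :: q :: r :: L)) (L : List (V4 F × V4 F)) (hL : OK P L) : Φ L := by
  induction hn : L.length using Nat.strong_induction_on generalizing L with
  | _ n ih =>
  have sw : ∀ p q L, (p :: q :: L).length = n → OK P (p :: q :: L) → Φ (q :: p :: L) →
      Φ (p :: q :: L) := fun p q L e o => by
    obtain ⟨a, b, c⟩ : HT P p.1 p.2 ∧ HT P q.1 q.2 ∧ OK P L := by simpa [ok_cons] using o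
    simp only [List.length_cons] at e
    exact swap p q L o (ih _ (by simp; omega) _ (ok_cons.2 ⟨a, c⟩) rfl)
      (ih _ (by simp; omega) _ (ok_cons.2 ⟨b, c⟩) rfl)
      (ih _ (by simp; omega) _ (ok_cons.2 ⟨b.conjT a, c⟩) rfl)
  match L, hL, hn with
  | [], _, _ => exact h0
  | [p], hL, _ => exact h1 p hL
  | [p, q], hL, _ => exact h2 p q hL
  | p :: q :: r :: L, hL, hn =>
    obtain ⟨a, b, c, d⟩ : HT P p.1 p.2 ∧ HT P q.1 q.2 ∧ HT P r.1 r.2 ∧ OK P L := by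
      simpa [ok_cons] using hL
    simp only [List.length_cons] at hn
    by_cases e1 : p.2 ⬝ᵥ r.1 = 0
    · rw [rot]
      refine sw q r (L ++ [p]) (by simp; omega) (by simp [ok_cons, ok_snoc, *]) ?_
      exact (rot p (r :: q :: L)).1 (zero _ _ _ (by simp [ok_cons, *]) e1)
    by_cases e2 : r.2 ⬝ᵥ p.1 = 0
    · refine sw p q _ (by simp; omega) hL ?_
      rw [rot]
      exact sw p r (L ++ [q]) (by simp; omega) (by simp [ok_cons, ok_snoc, *])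
        (zero _ _ _ (by simp [ok_cons, ok_snoc, *]) e2)
    exact fac p q r L hL e1 e2 (ih _ (by simp; omega) _ (by simp [ok_cons, *]) rfl)

lemma vv_conjT (v φ w ψ : V4 F) : vv (w + (φ ⬝ᵥ w) • v) (ψ - (ψ ⬝ᵥ v) • φ) =
    vv w ψ + vv v φ * vv w ψ - vv w ψ * vv v φ - (φ ⬝ᵥ w * ψ ⬝ᵥ v) • vv v φ := by
  simp only [vv_mul_vv, add_vv, vv_sub, vv_smul, smul_vv]
  module

lemma vv3 (v φ w ψ u χ : V4 F) : (φ ⬝ᵥ u) • (vv v φ * (vv w ψ * vv u χ)) =
    (φ ⬝ᵥ w * ψ ⬝ᵥ u) • (vv v φ * vv u χ) := by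
  simp only [vv_mul_vv, mul_smul_comm]
  module

theorem cyc_mem (h2 : Pr P k) (h3 : ∀ ⦃v φ w ψ u χ : V4 F⦄, HT P v φ → HT P w ψ → HT P u χ →
    φ ⬝ᵥ w * ψ ⬝ᵥ u * χ ⬝ᵥ v ∈ k) (L : List (V4 F × V4 F)) (hL : OK P L) : (pr L).trace ∈ k := by
  refine cyc_ind (Φ := fun L => (pr L).trace ∈ k) ?_ ?_ ?_ ?_ ?_ ?_ ?_ L hL
  · rw [pr_nil, trace_one]; exact natCast_mem k _
  · intro p o
    simp [trace_vv, (ok_cons.1 o).1.1]
  · intro p q o
    simpa [vv_mul_vv, trace_vv] using h2 (ok_cons.1 o).1 (ok_cons.1 (ok_cons.1 o).2).1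
  · intro p L
    simp [trace_mul_comm (pr L)]
  · intro p q L o a b c d
    simp only [pr_cons, vv_conjT, add_mul, sub_mul, smul_mul_assoc, trace_add, trace_sub, trace_smul,
      mul_assoc, smul_eq_mul] at a b c d ⊢
    have e := h2 (ok_cons.1 o).1 (ok_cons.1 (ok_cons.1 o).2).1
    convert k.add_mem (k.add_mem (k.sub_mem c b) d) (k.mul_mem e a) using 1
    ring
  · intro p q L o e
    simp [← mul_assoc, vv_mul_vv, e]
  · intro p q r L o e1 e2 a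
    obtain ⟨b, c, d, -⟩ : HT P p.1 p.2 ∧ HT P q.1 q.2 ∧ HT P r.1 r.2 ∧ OK P L := by
      simpa [ok_cons] using o
    have := congrArg (fun A => (A * pr L).trace) (vv3 p.1 p.2 q.1 q.2 r.1 r.2)
    simp only [smul_mul_assoc, trace_smul, mul_assoc, smul_eq_mul] at this
    simp only [pr_cons] at a ⊢
    convert k.div_mem (k.mul_mem (h3 b c d) a) (h2 b d) using 1
    rw [eq_div_iff (mul_ne_zero e1 e2)]
    linear_combination (r.2 ⬝ᵥ p.1) * this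

theorem cyc_rev {σ : F →+* F} (ho : AO P) (h2 : Pr P {x | σ x = x}) (h3 : Tri P σ)
    (L : List (V4 F × V4 F)) (hL : OK P L) :
    (pr L.reverse).trace = (-1) ^ L.length * σ (pr L).trace := by
  refine cyc_ind (Φ := fun L => (pr L.reverse).trace = (-1) ^ L.length * σ (pr L).trace)
    ?_ ?_ ?_ ?_ ?_ ?_ ?_ L hL
  · simp [map_ofNat]
  · intro p o
    simp [trace_vv, (ok_cons.1 o).1.1]
  · intro p q o
    have e : σ _ = _ := h2 (ok_cons.1 o).1 (ok_cons.1 (ok_cons.1 o).2).1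
    simp only [List.reverse_cons, List.reverse_nil, List.nil_append, List.cons_append, pr_cons, pr_nil,
      mul_one, vv_mul_vv, trace_smul, trace_vv, smul_eq_mul, e]
    simp [mul_comm]
  · intro p L
    simp [trace_mul_comm (pr L), trace_mul_comm (pr L.reverse)]
  · intro p q L o a b c d
    have e : σ _ = _ := h2 (ok_cons.1 o).1 (ok_cons.1 (ok_cons.1 o).2).1
    simp only [List.reverse_cons, pr_append, pr_cons, pr_nil, mul_one, vv_conjT, add_mul, sub_mul,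
      mul_add, mul_sub, mul_smul_comm, smul_mul_assoc, trace_add, trace_sub, trace_smul,
      mul_assoc, smul_eq_mul, List.length_cons, pow_succ, map_add, map_sub] at a b c d ⊢
    rw [← mul_assoc (p.2 ⬝ᵥ q.1), ← mul_assoc (p.2 ⬝ᵥ q.1), map_mul σ (_ * _), e] at c
    linear_combination -c + b + d - (p.2 ⬝ᵥ q.1 * q.2 ⬝ᵥ p.1) * a
  · intro p q L o e
    obtain ⟨a, b, -⟩ : HT P p.1 p.2 ∧ HT P q.1 q.2 ∧ OK P L := by simpa [ok_cons] using o
    have : vv q.1 q.2 * vv p.1 p.2 = 0 := by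
      by_cases h1 : p.2 = 0
      · simp [h1]
      by_cases h2 : q.1 = 0
      · simp [h2]
      simp [vv_mul_vv, ho a b h1 h2 e]
    simp [mul_assoc, this, ← mul_assoc (vv p.1 p.2), vv_mul_vv, e]
  · intro p q r L o e1 e2 a
    obtain ⟨b, c, d, -⟩ : HT P p.1 p.2 ∧ HT P q.1 q.2 ∧ HT P r.1 r.2 ∧ OK P L := by
      simpa [ok_cons] using o
    have k1 := congrArg (fun A => σ ((r.2 ⬝ᵥ p.1) * (A * pr L).trace)) (vv3 p.1 p.2 q.1 q.2 r.1 r.2)
    have k2 := congrArg (fun A => (pr L.reverse * A).trace) (vv3 r.1 r.2 q.1 q.2 p.1 p.2)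
    have e : σ _ = _ := h2 b d
    have e' := h3 b c d
    simp only [smul_mul_assoc, mul_smul_comm, trace_smul, mul_assoc, smul_eq_mul, map_mul] at k1 k2 e e'
    simp only [List.reverse_cons, pr_append, pr_cons, pr_nil, mul_one, mul_assoc, List.length_cons,
      pow_succ] at a ⊢
    apply mul_left_cancel₀ (mul_ne_zero e1 e2)
    generalize σ (vv p.1 p.2 * (vv q.1 q.2 * (vv r.1 r.2 * pr L))).trace = X at *
    generalize σ (vv p.1 p.2 * (vv r.1 r.2 * pr L)).trace = Y at *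
    linear_combination (p.2 ⬝ᵥ r.1) * k2 + (p.2 ⬝ᵥ r.1 * r.2 ⬝ᵥ q.1 * q.2 ⬝ᵥ p.1) * a +
      (-1) ^ L.length * k1 + (-1) ^ L.length * Y * e' - (-1) ^ L.length * X * e

theorem Hy.trace_mem (hy : Hy P) (h2 : Pr P k) (h3 : ∀ ⦃v φ w ψ u χ : V4 F⦄, HT P v φ → HT P w ψ →
    HT P u χ → φ ⬝ᵥ w * ψ ⬝ᵥ u * χ ⬝ᵥ v ∈ k) {g : GL4 F} (hg : g ∈ P) : (g : M4 F).trace ∈ k := by
  simpa using hy.ind (p := fun g => ∀ L, OK P L → ((g : M4 F) * pr L).trace ∈ k)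
    (by simpa using cyc_mem h2 h3) (fun v φ b A _ ih L hL => by
      have := ih (L ++ [(v, φ)]) (ok_snoc.2 ⟨b, hL⟩)
      rw [pr_append, ← mul_assoc, trace_mul_comm] at this
      rw [Units.val_mul, tvU_val, mul_assoc, add_mul, one_mul, trace_add]
      exact k.add_mem (ih L hL) (by simpa using this)) hg [] (by simp [OK])

theorem Hy.trace_rev (hy : Hy P) {σ : F →+* F} (ho : AO P) (h2 : Pr P {x | σ x = x}) (h3 : Tri P σ)
    {g : GL4 F} (hg : g ∈ P) (L : List (V4 F × V4 F)) (hL : OK P L) :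
    (((g⁻¹ : GL4 F) : M4 F) * pr L.reverse).trace = (-1) ^ L.length * σ ((g : M4 F) * pr L).trace :=
  hy.ind (p := fun g => ∀ L, OK P L → (((g⁻¹ : GL4 F) : M4 F) * pr L.reverse).trace =
      (-1) ^ L.length * σ ((g : M4 F) * pr L).trace)
    (by simpa using cyc_rev ho h2 h3) (fun v φ b A _ ih L hL => by
      have := ih (L ++ [(v, φ)]) (ok_snoc.2 ⟨b, hL⟩)
      rw [pr_append, ← mul_assoc (A : M4 F) (pr L), trace_mul_comm (_ * pr L)] at this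
      have h := ih L hL
      rw [_root_.mul_inv_rev, Units.val_mul, Units.val_mul, tvU_val, tvU_inv, vv_neg]
      simp only [List.reverse_append, List.reverse_cons, List.reverse_nil, List.nil_append,
        List.cons_append, pr_cons, pr_nil, mul_one, List.length_append, List.length_cons,
        List.length_nil, zero_add, pow_succ] at this
      simp only [mul_assoc, add_mul, mul_add, one_mul, trace_add, map_add, neg_mul, mul_neg,
        trace_neg] at this ⊢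
      linear_combination h - this) hg L hL

/-! ### forms -/

theorem Hy.form [Finite F] (hy : Hy P) {σ : F →+* F} (hσ : ∀ x, σ (σ x) = x) (hv : v ≠ 0) (hφ : φ ≠ 0)
    (h : ∀ g ∈ P, φ ⬝ᵥ ((g⁻¹ : GL4 F) : M4 F) *ᵥ v = -σ (φ ⬝ᵥ (g : M4 F) *ᵥ v)) :
    ∃ f : V4 F → V4 F → F, (∀ x y v, f (x + y) v = f x v + f y v) ∧ (∀ (c : F) x v, f (c • x) v = c * f x v) ∧
      (∀ x y, f x y = -σ (f y x)) ∧ IsNondegenerateForm f ∧ FixesForm (matrixSet P) f ∧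
      ∀ x, f x v = φ ⬝ᵥ x := by
  classical
  haveI := Fintype.ofFinite P
  let π : (P → F) →ₗ[F] V4 F := Fintype.linearCombination F fun g : P => ((g : GL4 F) : M4 F) *ᵥ v
  have hπ : ∀ c, π c = ∑ g : P, c g • ((g : GL4 F) : M4 F) *ᵥ v := fun c =>
    Fintype.linearCombination_apply _ _ _
  have π1 : ∀ g : P, π (Pi.single g 1) = ((g : GL4 F) : M4 F) *ᵥ v := fun g => by
    simp [hπ, Pi.single_apply]
  have sp : ∀ W : Submodule F (V4 F), (∀ g ∈ P, (g : M4 F) *ᵥ v ∈ W) → W = ⊤ := fun W hW =>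
    eq_top_iff.2 fun x _ => by_contra fun k => by
      obtain ⟨θ, h1, h2⟩ := sep k
      obtain ⟨g, hg, e⟩ := hy.irr v θ hv (by rintro rfl; simp at h2)
      exact e (dotProduct_comm θ _ ▸ h1 _ (hW g hg))
  obtain ⟨s, hs⟩ := π.exists_rightInverse_of_surjective (sp _ fun g hg => ⟨_, π1 ⟨g, hg⟩⟩)
  have hs' : ∀ x, π (s x) = x := fun x => congrArg (· x) (congrArg DFunLike.coe hs)
  let Θ : (P → F) → V4 F → F := fun c x => ∑ g : P, σ (c g) * φ ⬝ᵥ (((g : GL4 F)⁻¹ : GL4 F) : M4 F) *ᵥ x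
  have key : ∀ c c', Θ c (π c') = -σ (Θ c' (π c)) := fun c c' => by
    simp only [Θ, hπ, mulVec_sum, dotProduct_sum, mulVec_smul, dotProduct_smul, Finset.mul_sum, map_sum,
      map_mul, smul_eq_mul, hσ, ← Finset.sum_neg_distrib]
    rw [Finset.sum_comm]
    refine Finset.sum_congr rfl fun a _ => Finset.sum_congr rfl fun b _ => ?_
    have := h _ (P.mul_mem (P.inv_mem a.2) b.2)
    rw [_root_.mul_inv_rev, inv_inv, Units.val_mul, Units.val_mul, ← mulVec_mulVec, ← mulVec_mulVec] at this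
    rw [this]; ring
  have skew : ∀ x y, Θ (s y) x = -σ (Θ (s x) y) := fun x y => by
    have := key (s y) (s x); rwa [hs', hs'] at this
  have f1 : ∀ (g : GL4 F) (hg : g ∈ P) x, Θ (s ((g : M4 F) *ᵥ v)) x = φ ⬝ᵥ ((g⁻¹ : GL4 F) : M4 F) *ᵥ x :=
    fun g hg x => by
      have := key (Pi.single ⟨g, hg⟩ 1) (s x)
      rw [hs', π1] at this
      rw [skew, ← this]
      simp [Θ, Pi.single_apply, apply_ite σ]
  have ad : ∀ x y v, Θ (s v) (x + y) = Θ (s v) x + Θ (s v) y := fun x y v => by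
    simp only [Θ, mulVec_add, dotProduct_add, mul_add, Finset.sum_add_distrib]
  have sm : ∀ (c : F) x v, Θ (s v) (c • x) = c * Θ (s v) x := fun c x v => by
    simp only [Θ, mulVec_smul, dotProduct_smul, Finset.mul_sum, smul_eq_mul, mul_left_comm c]
  have nd : ∀ x, x ≠ 0 → ∃ y, Θ (s y) x ≠ 0 := fun x hx => by
    obtain ⟨g, hg, e⟩ := hy.irr x φ hx hφ
    exact ⟨_, by rw [f1 _ (P.inv_mem hg), inv_inv]; exact e⟩
  refine ⟨fun x y => Θ (s y) x, ad, sm, skew, fun x hx => ⟨(nd x hx).imp fun y hy => ?_, nd x hx⟩, ?_,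
    fun x => by simpa using f1 1 P.one_mem x⟩
  · change Θ (s x) y ≠ 0
    rw [skew]; simpa using hy
  rintro _ ⟨g, hg, rfl⟩ x y
  let W : Submodule F (V4 F) :=
    { carrier := {y | Θ (s x) y = Θ (s ((g : M4 F) *ᵥ x)) ((g : M4 F) *ᵥ y)}
      zero_mem' := by simp [Θ]
      add_mem' := fun {a b} ha hb => by
        change _ = _ at ha hb ⊢
        rw [mulVec_add, ad, ad, ha, hb]
      smul_mem' := fun c a ha => by
        change _ = _ at ha ⊢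
        rw [mulVec_smul, sm, sm, ha] }
  have : W = ⊤ := sp W fun a ha => by
    change _ = _
    rw [skew, skew (_ *ᵥ _ *ᵥ _), mulVec_mulVec, ← Units.val_mul, f1 _ ha, f1 _ (P.mul_mem hg ha),
      _root_.mul_inv_rev, Units.val_mul, ← mulVec_mulVec, inv_mulVec_mulVec]
  have e : Θ (s x) y = _ := (this ▸ Submodule.mem_top : y ∈ W)
  change Θ _ _ = Θ _ _
  rw [skew, ← e, ← skew]

/-- `P` fixes a symplectic form -/
def Symp (P : Subgroup (GL4 F)) : Prop := ∃ f, IsSymplecticForm f ∧ FixesForm (matrixSet P) f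

/-- `P` fixes a unitary form -/
def Unit (P : Subgroup (GL4 F)) : Prop :=
  ∃ (σ : F ≃+* F) (f : V4 F → V4 F → F), IsUnitaryForm σ f ∧ FixesForm (matrixSet P) f

theorem Hy.symp [Finite F] (hy : Hy P) (a : HT P v φ) (hv : v ≠ 0) (hφ : φ ≠ 0)
    (h : ∀ g ∈ P, φ ⬝ᵥ ((g⁻¹ : GL4 F) : M4 F) *ᵥ v = -(φ ⬝ᵥ (g : M4 F) *ᵥ v)) : Symp P := by
  obtain ⟨f, h1, h2, h3, h4, h5, h6⟩ := hy.form (σ := RingHom.id F) (fun _ => rfl) hv hφ h
  simp only [RingHom.id_apply] at h3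
  have h1' : ∀ x y v, f v (x + y) = f v x + f v y := fun x y v => by
    rw [h3, h1, h3 x, h3 y]; ring
  have h2' : ∀ (c : F) x v, f v (c • x) = c * f v x := fun c x v => by
    rw [h3, h2, h3 x]; ring
  let W : Submodule F (V4 F) :=
    { carrier := {y | f y y = 0}
      zero_mem' := by simpa using h2 0 0 0
      add_mem' := fun {a b} ha hb => by
        change _ = _ at ha hb ⊢
        rw [h1, h1', h1', ha, hb, h3 a b]; ring
      smul_mem' := fun c a ha => by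
        change _ = _ at ha ⊢
        rw [h2, h2', ha]; ring }
  have : W = ⊤ := hy.irrS W (fun g hg x hx => (h5 _ ⟨g, hg, rfl⟩ x x).trans hx) hv ((h6 v).trans a.1)
  exact ⟨f, ⟨⟨h1, h2, fun v x y => h1' x y v, fun c v x => h2' c x v⟩, h3,
    fun x => (this ▸ Submodule.mem_top : x ∈ W), h4⟩, h5⟩

theorem Hy.unit [Finite F] (hy : Hy P) {σ : F →+* F} (hσ : ∀ x, σ (σ x) = x) (hσ' : ∃ a, σ a ≠ a)
    (hv : v ≠ 0) (hφ : φ ≠ 0)
    (h : ∀ g ∈ P, φ ⬝ᵥ ((g⁻¹ : GL4 F) : M4 F) *ᵥ v = -σ (φ ⬝ᵥ (g : M4 F) *ᵥ v)) : Unit P := by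
  obtain ⟨f, h1, h2, h3, h4, h5, -⟩ := hy.form hσ hv hφ h
  obtain ⟨a, ha⟩ := hσ'
  have a0 := sub_ne_zero.2 ha
  refine ⟨RingEquiv.ofBijective σ (Function.Involutive.bijective hσ), fun x y => (σ a - a) * f x y,
    ⟨fun e => ha (congrArg (· a) (congrArg DFunLike.coe e)), hσ, fun x y v => by rw [h1, mul_add],
      fun c x v => by rw [h2, mul_left_comm], fun x y => ?_, fun x hx =>
        ⟨(h4 x hx).1.imp fun _ => mul_ne_zero a0, (h4 x hx).2.imp fun _ => mul_ne_zero a0⟩⟩,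
    fun s hs x y => by simp only [h5 s hs]⟩
  change _ = σ _
  rw [map_mul, map_sub, hσ, h3]; ring

/-- the symmetric case -/
theorem Hy.ao_case [Finite F] (hy : Hy P)
    (htr : ∀ S : Subfield F, (∀ g ∈ P, (g : M4 F).trace ∈ S) → S = ⊤) (hk : KS P k) (ho : AO P) :
    Symp P ∨ (Unit P ∧ k ≠ ⊤ ∧ ∀ x : F, (x ^ Nat.card k) ^ Nat.card k = x) := by
  obtain ⟨σ, hσ, hσ'⟩ := H7.exists_fixHom k
  have h2 : Pr P {x | σ x = x} := fun v φ w ψ a b => (hσ' _).2 (hk.pair a b)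
  have h3 := hk.tri ho hσ'
  have t : ∀ g ∈ P, ((g⁻¹ : GL4 F) : M4 F).trace = σ (g : M4 F).trace := fun g hg => by
    simpa using hy.trace_rev ho h2 h3 hg [] (by simp [OK])
  have σ2 : ∀ x, σ (σ x) = x := fun x => H7.mem_fixField.1 (htr (H7.fixField (σ.comp σ)) (fun g hg => by
    rw [H7.mem_fixField, RingHom.comp_apply, ← t g hg, ← t _ (P.inv_mem hg), inv_inv]) ▸
      Subfield.mem_top x : x ∈ H7.fixField (σ.comp σ))
  obtain ⟨v, φ, hv, hφ, a⟩ := hy.ex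
  have h : ∀ g ∈ P, φ ⬝ᵥ ((g⁻¹ : GL4 F) : M4 F) *ᵥ v = -σ (φ ⬝ᵥ (g : M4 F) *ᵥ v) := fun g hg => by
    simpa [mul_vv, trace_vv] using hy.trace_rev ho h2 h3 hg [(v, φ)] (by simpa [OK] using a)
  by_cases e : ∃ a, σ a ≠ a
  · refine Or.inr ⟨hy.unit σ2 e hv hφ h, ?_, fun x => by rw [← hσ, ← hσ, σ2]⟩
    rintro rfl
    exact e.elim fun a ha => ha ((hσ' a).2 trivial)
  · push Not at e
    exact Or.inl (hy.symp a hv hφ fun g hg => by rw [h g hg, e])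

end Cfsg.Agent.H4.TV
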