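import Cfsg.Agent.H4.TV.T3

/-! Groups generated by transvections in dimension four: centres with several axes. -/

set_option autoImplicit false
set_option linter.unusedSectionVars false
set_option linter.unusedVariables false
set_option linter.unnecessarySimpa false
set_option linter.style.haveILetI false
set_option linter.unusedSimpArgs false

namespace Cfsg.Agent.H4.TV

open Cfsg.Geo Matrix
open Cfsg.Agent.H7.PA (up lo)
open scoped MatrixGroups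

variable {F : Type*} [Field F] {P Q : Subgroup (GL4 F)} {u v w x y φ ψ χ η α β : V4 F}

lemma dep4 {γ a b c d : V4 F} (h : γ ≠ 0) (h0 : γ ⬝ᵥ a = 0) (h1 : γ ⬝ᵥ b = 0) (h2 : γ ⬝ᵥ c = 0)
    (h3 : γ ⬝ᵥ d = 0) : ∃ s : V4 F, s ≠ 0 ∧ s 0 • a + s 1 • b + s 2 • c + s 3 • d = 0 := by
  obtain ⟨s, hs, e⟩ := (exists_vecMul_eq_zero_iff (M := of ![a, b, c, d])).2
    (exists_mulVec_eq_zero_iff.1 ⟨γ, h, ext4 ((dotProduct_comm a γ).trans h0)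
      ((dotProduct_comm b γ).trans h1) ((dotProduct_comm c γ).trans h2) ((dotProduct_comm d γ).trans h3)⟩)
  refine ⟨s, hs, funext fun i => ?_⟩
  exact (dot4 s _).symm.trans (congrFun e i)

lemma indep2 {y' : V4 F} (hy : y ≠ 0) (h : ∀ c : F, y' ≠ c • y) {a b : F} (e : a • y + b • y' = 0) :
    a = 0 ∧ b = 0 := by
  have hb : b = 0 := by_contra fun hb => h (-(a / b)) (smul_right_injective _ hb (by
    simp only [smul_smul]
    rw [show b * -(a / b) = -a by field_simp]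
    linear_combination (norm := module) e))
  simpa [hb, hy] using e

lemma span2 {y' : V4 F} (hα : α ≠ 0) (hβ : ∀ c : F, β ≠ c • α) (hy : y ≠ 0) (h : ∀ c : F, y' ≠ c • y)
    (a1 : α ⬝ᵥ y = 0) (a2 : α ⬝ᵥ y' = 0) (a3 : α ⬝ᵥ x = 0) (b1 : β ⬝ᵥ y = 0) (b2 : β ⬝ᵥ y' = 0)
    (b3 : β ⬝ᵥ x = 0) : ∃ a b : F, x = a • y + b • y' := by
  obtain ⟨o, ho⟩ := exists_dot hα
  obtain ⟨s, hs, e⟩ := dep4 (sub_ne_zero.2 (hβ (β ⬝ᵥ o))) (a := y) (b := y') (c := x) (d := o)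
    (by simp [a1, b1]) (by simp [a2, b2]) (by simp [a3, b3]) (by simp [ho])
  have s3 : s 3 = 0 := by simpa [a1, a2, a3, ho] using congrArg (α ⬝ᵥ ·) e
  have s2 : s 2 ≠ 0 := fun s2 => by
    have := indep2 hy h (a := s 0) (b := s 1) (by simpa [s2, s3] using e)
    exact hs (ext4 this.1 this.2 s2 s3)
  refine ⟨-(s 0 / s 2), -(s 1 / s 2), smul_right_injective _ s2 ?_⟩
  simp only [smul_add, smul_smul]
  rw [show s 2 * -(s 0 / s 2) = -s 0 by field_simp, show s 2 * -(s 1 / s 2) = -s 1 by field_simp]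
  rw [s3] at e
  linear_combination (norm := module) e

/-- centres -/
def Cen (P : Subgroup (GL4 F)) (w : V4 F) : Prop := w ≠ 0 ∧ ∃ ψ, ψ ≠ 0 ∧ HT P w ψ

/-- the intersection of the axes with a given centre -/
def LL (P : Subgroup (GL4 F)) (w : V4 F) : Submodule F (V4 F) where
  carrier := {x | ∀ α, HT P w α → α ⬝ᵥ x = 0}
  zero_mem' := fun _ _ => by simp
  add_mem' := fun a b α h => by rw [dotProduct_add, a α h, b α h, add_zero]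
  smul_mem' := fun c x a α h => by rw [dotProduct_smul, a α h, smul_zero]

lemma self_mem_LL (w : V4 F) : w ∈ LL P w := fun _ h => h.1

/-- every centre has two independent axes -/
def I2 (P : Subgroup (GL4 F)) : Prop :=
  ∀ w, Cen P w → ∃ α β, α ≠ 0 ∧ HT P w α ∧ HT P w β ∧ ∀ c : F, β ≠ c • α

lemma I2.span (h : I2 P) (hw : Cen P w) {y' : V4 F} (hy : y ≠ 0) (h' : ∀ c : F, y' ≠ c • y)
    (a1 : y ∈ LL P w) (a2 : y' ∈ LL P w) {θ : V4 F} (b1 : θ ⬝ᵥ y = 0) (b2 : θ ⬝ᵥ y' = 0)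
    (a3 : x ∈ LL P w) : θ ⬝ᵥ x = 0 := by
  obtain ⟨α, β, hα, a, b, hβ⟩ := h w hw
  obtain ⟨s, t, rfl⟩ := span2 hα hβ hy h' (a1 α a) (a2 α a) (a3 α a) (a1 β b) (a2 β b) (a3 β b)
  simp [b1, b2]

lemma Hy.cen (hy : Hy P) (hw : w ≠ 0) (hψ : ψ ≠ 0) : ∃ u, Cen P u ∧ ψ ⬝ᵥ u ≠ 0 ∧ w ∉ LL P u := by
  obtain ⟨u, χ, a, b, c⟩ := hy.opp' hw hψ
  exact ⟨u, ⟨(ne_of_dot b).2, χ, (ne_of_dot c).1, a⟩, b, fun e => c (e χ a)⟩

theorem lines (hy : Hy P) (h2 : I2 P) (d2 : ∀ w, Cen P w → ∃ x ∈ LL P w, ∀ c : F, x ≠ c • w)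
    (meet : ∀ w w', Cen P w → Cen P w' → (∃ x, x ≠ 0 ∧ x ∈ LL P w ∧ x ∈ LL P w') ∨
      ∃ γ, γ ≠ 0 ∧ (∀ x ∈ LL P w, γ ⬝ᵥ x = 0) ∧ ∀ x ∈ LL P w', γ ⬝ᵥ x = 0) : False := by
  have mt : ∀ w w', Cen P w → Cen P w' → ∃ x, x ≠ 0 ∧ x ∈ LL P w ∧ x ∈ LL P w' := fun w w' a b => by
    refine (meet w w' a b).elim id fun ⟨γ, g0, g1, g2⟩ => ?_
    obtain ⟨x, x1, x2⟩ := d2 w a
    obtain ⟨x', x1', x2'⟩ := d2 w' b
    obtain ⟨s, hs, e⟩ := dep4 g0 (g1 _ (self_mem_LL w)) (g1 _ x1) (g2 _ (self_mem_LL w')) (g2 _ x1')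
    refine ⟨s 0 • w + s 1 • x, fun k => ?_, add_mem (Submodule.smul_mem _ _ (self_mem_LL w))
      (Submodule.smul_mem _ _ x1), ?_⟩
    · have k1 := indep2 a.1 x2 k
      have k2 := indep2 b.1 x2' (a := s 2) (b := s 3) (by simpa [k] using e)
      exact hs (ext4 k1.1 k1.2 k2.1 k2.2)
    · rw [show s 0 • w + s 1 • x = -(s 2 • w' + s 3 • x') by linear_combination (norm := module) e]
      exact neg_mem (add_mem (Submodule.smul_mem _ _ (self_mem_LL w')) (Submodule.smul_mem _ _ x1'))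
  obtain ⟨w₁, φ, hw, hφ, a⟩ := hy.ex
  have c1 : Cen P w₁ := ⟨hw, φ, hφ, a⟩
  obtain ⟨w₂, c2, -, n12⟩ := hy.cen hw hφ
  obtain ⟨x, x0, x1, x2⟩ := mt _ _ c1 c2
  have nm : ∀ {L : Submodule F (V4 F)} {x y : V4 F}, y ∉ L → x ∈ L → ∀ c : F, y ≠ c • x :=
    fun h1 h2 c e => h1 (e ▸ Submodule.smul_mem _ c h2)
  have nm' : ∀ {L : Submodule F (V4 F)} {x y : V4 F}, x ∉ L → y ∈ L → y ≠ 0 → ∀ c : F, y ≠ c • x :=
    fun h1 h2 h3 c e => h1 ((Submodule.smul_mem_iff _ (by rintro rfl; simp [h3] at e)).1 (e ▸ h2))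
  obtain ⟨b, b1, b2⟩ : ∃ b ∈ LL P w₂, ∀ c : F, b ≠ c • x := by
    obtain ⟨y, y1, y2⟩ := d2 _ c2
    by_contra! k
    obtain ⟨c, e⟩ := k _ (self_mem_LL w₂)
    obtain ⟨d, e'⟩ := k _ y1
    have : c ≠ 0 := by rintro rfl; simp [c2.1] at e
    exact y2 (d / c) (by rw [e', e, smul_smul, div_mul_cancel₀ _ this])
  obtain ⟨θ, θ0, t1, t2, t3⟩ := exists_perp x w₁ b
  rw [dotProduct_comm] at t1 t2 t3
  have k1 := fun y => h2.span (x := y) c1 x0 (nm n12 x2) x1 (self_mem_LL _) t1 t2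
  have k2 := fun y => h2.span (x := y) c2 x0 b2 x2 b1 t1 t3
  have K : ∀ w, Cen P w → x ∉ LL P w → ∀ y ∈ LL P w, θ ⬝ᵥ y = 0 := fun w c n y hy => by
    obtain ⟨y₁, p0, p1, p2⟩ := mt _ _ c c1
    obtain ⟨y₂, q0, q1, q2⟩ := mt _ _ c c2
    refine h2.span c p0 (fun d e => ?_) p1 q1 (k1 _ p2) (k2 _ q2) hy
    obtain ⟨α, β, hα, a, b, hβ⟩ := h2 _ c1
    have q3 : y₂ ∈ LL P w₁ := e ▸ Submodule.smul_mem _ _ p2
    obtain ⟨s, t, e'⟩ := span2 hα hβ x0 (nm n12 x2) (x1 α a) a.1 (q3 α a) (x1 β b) b.1 (q3 β b)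
    have t0 : t = 0 := by_contra fun t0 => n12 ((Submodule.smul_mem_iff _ t0).1 (by
      have := Submodule.sub_mem _ q2 (Submodule.smul_mem _ s x2)
      rwa [e', add_sub_cancel_left] at this))
    exact nm' n q1 q0 s (by simpa [t0] using e')
  obtain ⟨w₃, c3, -, n3⟩ := hy.cen x0 hφ
  obtain ⟨u, cu, e, -⟩ := hy.cen x0 θ0
  refine e (by_contra fun k => k ?_)
  by_cases n : x ∈ LL P u
  · obtain ⟨y, p0, p1, p2⟩ := mt _ _ cu c3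
    exact h2.span cu x0 (nm' n3 p2 p0) n p1 t1 (K _ c3 n3 _ p2) (self_mem_LL u)
  · exact K u cu n _ (self_mem_LL u)

lemma I2.other (h : I2 P) (a : HT P w φ) (hw : w ≠ 0) (hφ : φ ≠ 0) :
    ∃ α, HT P w α ∧ ∀ c : F, α ≠ c • φ := by
  obtain ⟨α, β, hα, b, c, hβ⟩ := h w ⟨hw, φ, hφ, a⟩
  by_contra! k
  obtain ⟨s, rfl⟩ := k _ b
  obtain ⟨t, rfl⟩ := k _ c
  have : s ≠ 0 := by rintro rfl; simp at hα
  exact hβ (t / s) (by rw [smul_smul, div_mul_cancel₀ _ this])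

variable {k : Subfield F}

lemma KS.cyc3 (hk : KS P k) (h : I2 P) (h1 : HT P v φ) (h2 : HT P w ψ) (h3 : HT P u χ) :
    φ ⬝ᵥ w * ψ ⬝ᵥ u * χ ⬝ᵥ v ∈ k := by
  by_contra ha
  have hd := hk.diff h1 h2 h3
  have a0 : φ ⬝ᵥ w * ψ ⬝ᵥ u * χ ⬝ᵥ v ≠ 0 := fun e => ha (e ▸ k.zero_mem)
  have b0 : φ ⬝ᵥ u * χ ⬝ᵥ w * ψ ⬝ᵥ v ≠ 0 := fun e => ha (by simpa [e] using hd)
  simp only [ne_eq, mul_eq_zero, not_or] at a0 b0
  obtain ⟨⟨e1, e2⟩, e3⟩ := a0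
  obtain ⟨⟨e4, e5⟩, e6⟩ := b0
  obtain ⟨α, a, hα⟩ := h.other h1 (ne_of_dot e3).2 (ne_of_dot e1).1
  have r1 : α ⬝ᵥ w / φ ⬝ᵥ w ∈ k := by
    simpa [mul_div_mul_right _ _ e6] using k.div_mem (hk.pair a h2) (hk.pair h1 h2)
  have r2 : α ⬝ᵥ u / φ ⬝ᵥ u ∈ k := by
    simpa [mul_div_mul_right _ _ e3] using k.div_mem (hk.pair a h3) (hk.pair h1 h3)
  have r3 : α ⬝ᵥ u / φ ⬝ᵥ u = α ⬝ᵥ w / φ ⬝ᵥ w := by_contra fun e => ha (by
    convert k.div_mem (k.sub_mem (k.mul_mem r2 hd) (hk.diff a h2 h3)) (k.sub_mem r2 r1) using 1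
    rw [eq_div_iff (sub_ne_zero.2 e)]
    field_simp
    ring)
  have b := a.sub (hk.smul h1 r1)
  have b0 := sub_ne_zero.2 (hα (α ⬝ᵥ w / φ ⬝ᵥ w))
  have b1 : (α - (α ⬝ᵥ w / φ ⬝ᵥ w) • φ) ⬝ᵥ w = 0 := by simp [e1]
  have b2 : (α - (α ⬝ᵥ w / φ ⬝ᵥ w) • φ) ⬝ᵥ u = 0 := by simp [← r3, e4]
  generalize α - (α ⬝ᵥ w / φ ⬝ᵥ w) • φ = γ at *
  have := ((b.comm h3 b2).comm h2 (by simp [b1])).comm h1 (by simp [b.1])
  rw [smul_smul, smul_smul] at this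
  exact ha (hk.conv b this (ne_of_dot e3).2 b0)

variable [Finite F]

lemma Hy.i2 (hy : Hy P) (a : HT P v α) (b : HT P v β) (hv : v ≠ 0) (hα : α ≠ 0)
    (hβ : ∀ c : F, β ≠ c • α) : I2 P := fun w ⟨hw, ψ, hψ, d⟩ => by
  obtain ⟨g, hg, s, t, hs, -, e, -⟩ := hy.flag_conj a hv hα d hw hψ
  refine ⟨_, _, smul_ne_zero hs (gl_ne' g⁻¹ hα), ht_smul.1 (e ▸ a.conj hg),
    ht_smul.1 (e ▸ b.conj hg), fun c e => hβ c ?_⟩
  rw [smul_comm, (smul_right_injective _ hs).eq_iff, ← smul_vecMul] at e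
  simpa using congrArg (· ᵥ* (g : M4 F)) e

lemma Hy.i2_of_not (hy : Hy P) (ho : ¬ AO P) : I2 P := by
  simp only [AO, not_forall] at ho
  obtain ⟨v, φ, w, ψ, a, b, hφ, hw, e, e'⟩ := ho
  exact hy.i2 (a.comm b e) b hw (smul_ne_zero e' hφ) fun c k => e' (by rw [k]; simp [a.1])

theorem Hy.sl_case (hy : Hy P) (htr : ∀ S : Subfield F, (∀ g ∈ P, (g : M4 F).trace ∈ S) → S = ⊤)
    (hk : KS P k) (ho : ¬ AO P) : specialLinear (Fin 4) F ≤ P := by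
  have h2 := hy.i2_of_not ho
  obtain rfl := htr k fun g hg => hy.trace_mem hk.pair (fun _ _ _ _ _ _ => hk.cyc3 h2) hg
  have sm : ∀ {v φ} (s : F), HT P v φ → HT P v (s • φ) := fun s a => hk.smul a trivial
  obtain ⟨w, cw, hw⟩ : ∃ w, Cen P w ∧ ∀ x ∈ LL P w, ∃ c : F, x = c • w := by
    by_contra! k
    refine lines hy h2 k fun w w' a b => ?_
    by_cases e : w ∈ LL P w'
    · exact Or.inl ⟨w, a.1, self_mem_LL w, e⟩
    obtain ⟨ψ, d, e⟩ : ∃ ψ, HT P w' ψ ∧ ψ ⬝ᵥ w ≠ 0 := by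
      by_contra! k
      exact e k
    obtain ⟨α, β, hα, a1, a2, hβ⟩ := h2 w a
    obtain ⟨γ, g0, g1, g2⟩ : ∃ γ, γ ≠ 0 ∧ HT P w γ ∧ γ ⬝ᵥ w' = 0 := by
      by_cases z : α ⬝ᵥ w' = 0
      · exact ⟨α, hα, a1, z⟩
      · exact ⟨_, sub_ne_zero.2 (hβ (β ⬝ᵥ w' / α ⬝ᵥ w')), a2.sub (sm _ a1), by simp [z]⟩
    exact Or.inr ⟨γ, g0, fun x hx => hx _ g1, fun x hx => by simpa [e] using hx _ (g1.comm d g2)⟩
  let A : Submodule F (V4 F) :=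
    { carrier := {α | HT P w α}
      zero_mem' := ht_zero w
      add_mem' := HT.add
      smul_mem' := fun c x a => sm c a }
  have full : H6.Full (P.map H6.gl0.toMonoidHom) w := fun f hf => by
    have e : ∀ x, (fun j => f (Pi.single j 1)) ⬝ᵥ x = f x := fun x => by
      rw [f.pi_apply_eq_sum_univ x, dotProduct]
      refine Finset.sum_congr rfl fun j _ => ?_
      rw [smul_eq_mul, mul_comm, show (fun l => if j = l then 1 else 0 : V4 F) = Pi.single j 1 from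
        funext fun l => by simp [Pi.single_apply, eq_comm]]
    have : (fun j => f (Pi.single j 1)) ∈ A := by_contra fun k => by
      obtain ⟨x, x1, x2⟩ := sep k
      obtain ⟨c, rfl⟩ := hw x x1
      simp [e, hf] at x2
    exact ⟨_, ⟨_, HT.mem this, rfl⟩, fun x => by rw [← e]; exact tv_mulVec _ _ _⟩
  have := hy.irrS (H6.fullSub (P.map H6.gl0.toMonoidHom)) (fun g hg x hx =>
    H6.Full.map hx (g := H6.gl0 g) ⟨g, hg, rfl⟩) cw.1 full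
  intro g hg
  obtain ⟨B, hB, e⟩ := H6.SLV_le_of_full (M := P.map H6.gl0.toMonoidHom)
    (fun v => (this ▸ Submodule.mem_top : v ∈ H6.fullSub _)) ((H6.glEquiv_mem_SLV _ g).2 hg)
  exact H6.gl0.injective e ▸ hB

end Cfsg.Agent.H4.TV
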