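import Cfsg.Agent.H4.TV.T4

/-! Groups generated by transvections in dimension four: root groups of order two. -/

set_option autoImplicit false
set_option linter.unusedSectionVars false
set_option linter.unusedVariables false
set_option linter.unnecessarySimpa false
set_option linter.style.haveILetI false
set_option linter.unusedSimpArgs false

namespace Cfsg.Agent.H4.TV

open Cfsg.Geo Matrix
open Cfsg.Agent.H7.PA (up lo)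
open Cfsg.Agent.H8 (mat)
open scoped MatrixGroups

variable {F : Type*} [Field F] {P Q : Subgroup (GL4 F)} {u v w x y φ ψ χ η α β : V4 F}

lemma Two.dc (t : Two P) (h1 : HT P v φ) (h2 : HT P w ψ) (z0 : φ ⬝ᵥ w * ψ ⬝ᵥ v ≠ 0)
    (z1 : φ ⬝ᵥ w * ψ ⬝ᵥ v ≠ 1) (a : HT P v η) (e : η ⬝ᵥ w = 0) : η = 0 := by
  by_contra k
  have := (a.comm h2 e).comm h1 (by simp [a.1])
  rw [smul_smul] at this
  exact (t.T a this (ne_of_dot (right_ne_zero_of_mul z0)).2 k).elim z0 z1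

lemma Two.faith (t : Two P) (h1 : HT P v φ) (h2 : HT P w ψ) (z0 : φ ⬝ᵥ w * ψ ⬝ᵥ v ≠ 0)
    (z1 : φ ⬝ᵥ w * ψ ⬝ᵥ v ≠ 1) {g : GL4 F} (hg : g ∈ P) (e : (g : M4 F) = 1 + vv v α + vv w β)
    (a1 : α ⬝ᵥ v = 0) (a2 : α ⬝ᵥ w = 0) (b1 : β ⬝ᵥ v = 0) (b2 : β ⬝ᵥ w = 0) : β = 0 := by
  have : HT P v ((φ ⬝ᵥ w) • β) := ⟨by simp [b1], _,
    P.mul_mem (P.mul_mem (P.mul_mem h1.mem hg) (P.inv_mem h1.mem)) (P.inv_mem hg), by
      rw [Units.val_mul, Units.mul_inv_eq_iff_eq_mul, Units.val_mul, Units.val_mul, e, tvU_val, tvU_inv]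
      simp only [mul_add, add_mul, mul_one, one_mul, vv_mul_vv, vv_smul, vv_neg, h1.1, a1, a2, b1, b2,
        zero_smul, smul_mul_assoc, mul_smul_comm, smul_zero, add_zero, mul_neg, neg_zero]
      module⟩
  simpa [left_ne_zero_of_mul z0] using t.dc h1 h2 z0 z1 this (by simp [b2])

/-- the action on a plane -/
def Rel (v w : V4 F) (g : GL4 F) (B : GL (Fin 2) F) : Prop :=
  ∃ α β, (g : M4 F) = 1 + vv v α + vv w β ∧
    B 0 0 = 1 + α ⬝ᵥ v ∧ B 0 1 = α ⬝ᵥ w ∧ B 1 0 = β ⬝ᵥ v ∧ B 1 1 = 1 + β ⬝ᵥ w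

lemma Rel.mul {g g' : GL4 F} {A B : GL (Fin 2) F} (h : Rel v w g A) (h' : Rel v w g' B) :
    Rel v w (g * g') (A * B) := by
  obtain ⟨α, β, e, a0, a1, a2, a3⟩ := h
  obtain ⟨α', β', e', b0, b1, b2, b3⟩ := h'
  refine ⟨_, _, by rw [Units.val_mul, e, e', pl_mul], ?_, ?_, ?_, ?_⟩ <;>
    simp [mul_apply, Fin.sum_univ_two, a0, a1, a2, a3, b0, b1, b2, b3] <;> ring

lemma Rel.app {g : GL4 F} {B : GL (Fin 2) F} (h : Rel v w g B) :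
    (g : M4 F) *ᵥ v = B 0 0 • v + B 1 0 • w ∧ (g : M4 F) *ᵥ w = B 0 1 • v + B 1 1 • w ∧
      ∀ x, ∃ a b : F, (g : M4 F) *ᵥ x = x + a • v + b • w := by
  obtain ⟨α, β, e, a0, a1, a2, a3⟩ := h
  have k : ∀ x, (g : M4 F) *ᵥ x = x + (α ⬝ᵥ x) • v + (β ⬝ᵥ x) • w := fun x => by
    rw [e, add_mulVec, tv_mulVec, vv_mulVec]
  exact ⟨by rw [k, a0, a2]; module, by rw [k, a1, a3]; module, fun x => ⟨_, _, k x⟩⟩

lemma Two.uniq (t : Two P) (h1 : HT P v φ) (h2 : HT P w ψ) (z0 : φ ⬝ᵥ w * ψ ⬝ᵥ v ≠ 0)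
    (z1 : φ ⬝ᵥ w * ψ ⬝ᵥ v ≠ 1) {g g' : GL4 F} (hg : g ∈ P) (hg' : g' ∈ P) {B : GL (Fin 2) F}
    (r : Rel v w g B) (r' : Rel v w g' B) : g' = g := by
  obtain ⟨α, β, e, a0, a1, a2, a3⟩ := r
  obtain ⟨α', β', e', b0, b1, b2, b3⟩ := r'
  have c0 : (α' - α) ⬝ᵥ v = 0 := by rw [sub_dotProduct]; linear_combination a0 - b0
  have c1 : (α' - α) ⬝ᵥ w = 0 := by rw [sub_dotProduct]; linear_combination a1 - b1
  have c2 : (β' - β) ⬝ᵥ v = 0 := by rw [sub_dotProduct]; linear_combination a2 - b2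
  have c3 : (β' - β) ⬝ᵥ w = 0 := by rw [sub_dotProduct]; linear_combination a3 - b3
  have k : ((g' * g⁻¹ : GL4 F) : M4 F) = 1 + vv v (α' - α) + vv w (β' - β) := by
    rw [Units.val_mul, Units.mul_inv_eq_iff_eq_mul, e, e', pl_mul, c0, c1, c2, c3]
    simp
  have m := P.mul_mem hg' (P.inv_mem hg)
  have k1 := t.faith h1 h2 z0 z1 m k c0 c1 c2 c3
  have k2 := t.faith h2 h1 (mul_comm (φ ⬝ᵥ w) _ ▸ z0) (mul_comm (φ ⬝ᵥ w) _ ▸ z1) m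
    (k.trans (add_right_comm _ _ _)) c3 c2 c1 c0
  exact Units.ext (by rw [e, e', sub_eq_zero.1 k1, sub_eq_zero.1 k2])

variable [Finite F]

lemma mem_Pl_top {B : GL (Fin 2) F} : B ∈ Pl P v w ⊤ ↔ ∃ g ∈ P, Rel v w g B :=
  ⟨fun ⟨α, _, β, _, g, hg, e⟩ => ⟨g, hg, α, β, e⟩,
    fun ⟨g, hg, α, β, e⟩ => ⟨α, trivial, β, trivial, g, hg, e⟩⟩

lemma Two.upi (t : Two P) (h1 : HT P v φ) (h2 : HT P w ψ) (z0 : φ ⬝ᵥ w * ψ ⬝ᵥ v ≠ 0)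
    (z1 : φ ⬝ᵥ w * ψ ⬝ᵥ v ≠ 1) (s : F) : up s ∈ Pl P v w ⊤ ↔ ∃ α, HT P v α ∧ α ⬝ᵥ w = s := by
  refine ⟨fun ⟨α, _, β, _, g, hg, e, a0, a1, a2, a3⟩ => ?_,
    fun ⟨α, a, e⟩ => e ▸ up_mem a Submodule.mem_top w⟩
  by_cases hs : s = 0
  · exact ⟨0, ht_zero v, by simp [hs]⟩
  simp at a0 a1 a2 a3
  have tw : ∀ y : V4 F, y + y = 0 := fun y => by rw [← two_smul F, t.two, zero_smul]
  have : HT P v (s • β) := ⟨by simp [← a2], _, P.mul_mem hg hg, by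
    rw [Units.val_mul, e, pl_mul]; simp [a0, ← a1, ← a2, a3, tw]⟩
  have b0 : β = 0 := by simpa [hs] using t.dc h1 h2 z0 z1 this (by simp [a3])
  exact ⟨α, ⟨a0, g, hg, by simp [e, b0]⟩, a1.symm⟩

/-- antidiagonal matrices -/
abbrev nm (s : F) (hs : s ≠ 0) : GL (Fin 2) F := mat 0 s⁻¹ s 0 (by simp [hs])

/-- diagonal matrices -/
abbrev dg (s : F) (hs : s ≠ 0) : GL (Fin 2) F := mat s 0 0 s⁻¹ (by simp [hs])

omit [Finite F] in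
lemma sl2_mem (t2 : (2 : F) = 0) {G : Subgroup (GL (Fin 2) F)} {k : Subfield F}
    (k3 : ∀ s ∈ k, up s ∈ G) {z : F} (z0 : z ≠ 0) (kz : z ∈ k) (hz : lo z ∈ G) :
    nm 1 one_ne_zero ∈ G ∧ ∀ s (hs : s ≠ 0), s ∈ k → dg s hs ∈ G := by
  have n1 : ∀ s (hs : s ≠ 0), s ∈ k → lo s ∈ G → nm s hs ∈ G := fun s hs a b => by
    have : nm s hs = up s⁻¹ * lo s * up s⁻¹ := by
      ext i j
      fin_cases i <;> fin_cases j <;> simp [mul_apply, Fin.sum_univ_two, hs] <;>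
        (clear * - t2; grind)
    exact this ▸ mul_mem (mul_mem (k3 _ (k.inv_mem a)) b) (k3 _ (k.inv_mem a))
  have lom : ∀ s ∈ k, lo s ∈ G := fun s hs => by
    have n := n1 _ z0 kz hz
    have : lo s = nm z z0 * up (s / (z * z)) * (nm z z0)⁻¹ := by
      rw [eq_mul_inv_iff_mul_eq]
      ext i j
      fin_cases i <;> fin_cases j <;> simp [mul_apply, Fin.sum_univ_two, z0]
      field_simp
    exact this ▸ mul_mem (mul_mem n (k3 _ (k.div_mem hs (k.mul_mem kz kz)))) (inv_mem n)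
  refine ⟨n1 1 _ k.one_mem (lom 1 k.one_mem), fun s hs a => ?_⟩
  have : dg s hs = nm 1 one_ne_zero * nm s hs := by
    ext i j
    fin_cases i <;> fin_cases j <;> simp [mul_apply, Fin.sum_univ_two]
  exact this ▸ mul_mem (n1 1 _ k.one_mem (lom 1 k.one_mem)) (n1 s hs a (lom s a))

omit [Finite F] in
lemma Two.fix (t : Two P) (h1 : HT P v φ) (h2 : HT P w ψ) (z0 : φ ⬝ᵥ w * ψ ⬝ᵥ v ≠ 0)
    (z1 : φ ⬝ᵥ w * ψ ⬝ᵥ v ≠ 1) {g h h' : GL4 F} {B H : GL (Fin 2) F} {s : F} {hs : s ≠ 0} {c : V4 F}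
    (s1 : s ≠ 1) (hg : g ∈ P) (hh : h ∈ P) (hh' : h' ∈ P) (r1 : Rel v w g B) (r2 : Rel v w h H)
    (r3 : Rel v w h' (dg s hs)) (e : B * H = dg s hs * B) (c1 : (h : M4 F) *ᵥ c = c)
    (c2 : (h' : M4 F) *ᵥ c = c) : (g : M4 F) *ᵥ c = c := by
  have := t.uniq h1 h2 z0 z1 (P.mul_mem hg hh) (P.mul_mem hh' hg) (r1.mul r2) (e ▸ r3.mul r1)
  have := congrArg (fun A : GL4 F => (A : M4 F) *ᵥ c) this
  obtain ⟨a, b, e'⟩ := r1.app.2.2 c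
  simp only [Units.val_mul, ← mulVec_mulVec, c1, e', mulVec_add, mulVec_smul, c2, r3.app.1,
    r3.app.2.1] at this
  simp at this
  have := indep2 (ne_of_dot (right_ne_zero_of_mul z0)).2 (y' := w)
    (fun c e => by simp [e, h1.1] at z0) (a := a * (s - 1)) (b := b * (s⁻¹ - 1))
    (by linear_combination (norm := module) this)
  simp [sub_eq_zero, s1] at this
  simp [e', this]

lemma Two.a2_std (t : Two P) (h1 : HT P v φ) (h2 : HT P w ψ) (e1 : φ ⬝ᵥ w = 1) (z0 : ψ ⬝ᵥ v ≠ 0)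
    (z1 : ψ ⬝ᵥ v ≠ 1) {φ' : V4 F} (h1' : HT P v φ') (n0 : φ' ≠ 0) (n1 : φ' ≠ φ) :
    ∃ c, c ≠ 0 ∧ c ∈ LL P v ∧ c ∈ LL P w := by
  have t2 := t.two
  have z0' : φ ⬝ᵥ w * ψ ⬝ᵥ v ≠ 0 := by simpa [e1] using z0
  have z1' : φ ⬝ᵥ w * ψ ⬝ᵥ v ≠ 1 := by simpa [e1] using z1
  have dc := fun η => t.dc (η := η) h1 h2 z0' z1'
  have upi := t.upi h1 h2 z0' z1'
  have h3 : 3 ≤ Nat.card {s : F // up s ∈ Pl P v w ⊤} := H7.PA.three_le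
    (a := ⟨0, (upi _).2 ⟨0, ht_zero v, by simp⟩⟩) (b := ⟨1, (upi _).2 ⟨φ, h1, e1⟩⟩)
    (c := ⟨_, (upi _).2 ⟨φ', h1', rfl⟩⟩) (by simp) (fun e => n0 (dc _ h1' (Subtype.mk.inj e).symm))
    (fun e => n1 (sub_eq_zero.1 (dc _ (h1'.sub h1) (by simp [e1, ← Subtype.mk.inj e]))))
  obtain ⟨k, a, ha, k1, k2⟩ := (H7.PA.core2 h3 z0 (lo_mem h2 Submodule.mem_top v)).resolve_right
    fun e => one_ne_zero (α := F) (by linear_combination e.1 - t2)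
  have hk : a ∈ k := by simpa using k.inv_mem ((k1 1).1 ((upi 1).2 ⟨φ, h1, e1⟩))
  have k3 : ∀ s, up s ∈ Pl P v w ⊤ ↔ s ∈ k := fun s => (k1 s).trans
    ⟨fun h => by simpa [ha] using k.mul_mem h hk, fun h => k.div_mem h hk⟩
  have kz : ψ ⬝ᵥ v ∈ k := by simpa [ha] using k.mul_mem (k.inv_mem hk) k2
  obtain ⟨m1, m2⟩ := sl2_mem t2 (fun s => (k3 s).2) z0 kz (lo_mem h2 Submodule.mem_top v)
  obtain ⟨n, hn, rn⟩ := mem_Pl_top.1 m1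
  obtain ⟨h, hh, rh⟩ := mem_Pl_top.1 (m2 _ z0 kz)
  obtain ⟨c, c0, c1, c2, c3⟩ := exists_perp φ (φ ᵥ* (h : M4 F)) (ψ ᵥ* (h : M4 F) - ψ)
  have hc : (h : M4 F) *ᵥ c = c := by
    obtain ⟨a, b, e'⟩ := rh.app.2.2 c
    rw [← dotProduct_mulVec, e'] at c2
    rw [sub_dotProduct, ← dotProduct_mulVec, e'] at c3
    simp [c1, h1.1, e1, h2.1, z0] at c2 c3
    simp [e', c2, c3]
  have dg' : ∀ s (hs : s ≠ 0), s ∈ k → ∃ g ∈ P, Rel v w g (dg s hs) ∧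
      (g : M4 F) *ᵥ c = c := fun s hs a => by
    obtain ⟨g, hg, r⟩ := mem_Pl_top.1 (m2 s hs a)
    refine ⟨g, hg, r, t.fix h1 h2 z0' z1' z1 hg hh hh r rh rh ?_ hc hc⟩
    ext i j
    fin_cases i <;> fin_cases j <;> simp [mul_apply, Fin.sum_univ_two, mul_comm]
  have cv : c ∈ LL P v := fun α a => by
    by_cases s0 : α ⬝ᵥ w = 0
    · simp [dc _ a s0]
    obtain ⟨m, hm⟩ := H7.exists_sq_eq_of_two_eq_zero t2 (α ⬝ᵥ w)
    have m0 : m ≠ 0 := by rintro rfl; exact s0 (by simpa using hm.symm)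
    obtain ⟨g, hg, r, e⟩ := dg' m m0 (H7.PA.mem_of_two_sq (by simp [t2])
      (by rw [← sq, hm]; exact (k3 _).1 ((upi _).2 ⟨α, a, rfl⟩)))
    have b := h1.conj hg
    rw [show (g : M4 F) *ᵥ v = m • v by simpa using r.app.1, ht_smul] at b
    have e2 : ((g⁻¹ : GL4 F) : M4 F) *ᵥ w = m • w := gl_inj g (by
      rw [mulVec_inv_mulVec, mulVec_smul, r.app.2.1]; simp [smul_smul, m0])
    have e3 : ((g⁻¹ : GL4 F) : M4 F) *ᵥ c = c := gl_inj g (by rw [mulVec_inv_mulVec, e])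
    rw [sub_eq_zero.1 (dc _ (a.sub b) (by
      rw [sub_dotProduct, smul_dotProduct, ← dotProduct_mulVec, e2, ← hm]; simp [e1, sq])),
      smul_dotProduct, ← dotProduct_mulVec, e3, c1, smul_zero]
  refine ⟨c, c0, cv, fun β b => ?_⟩
  obtain ⟨h', hh', rh', hc'⟩ := dg' _ (inv_ne_zero z0) (k.inv_mem kz)
  have e := t.fix h1 h2 z0' z1' (by simpa using z1) hn hh hh' rn rh rh' (by
    ext i j
    fin_cases i <;> fin_cases j <;> simp [mul_apply, Fin.sum_univ_two, mul_comm]) hc hc'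
  have d := b.conj hn
  rw [show (n : M4 F) *ᵥ w = v by simpa using rn.app.2.1] at d
  have := cv _ d
  rwa [← dotProduct_mulVec, show ((n⁻¹ : GL4 F) : M4 F) *ᵥ c = c from
    gl_inj n (by rw [mulVec_inv_mulVec, e])] at this

omit [Finite F] in
lemma LL_smul {a : F} (ha : a ≠ 0) : x ∈ LL P (a • w) ↔ x ∈ LL P w :=
  ⟨fun h α b => by simpa [ha] using h (a⁻¹ • α) (by simpa using b.resc (inv_ne_zero ha)),
    fun h α b => by simpa [ha] using h _ (ht_smul.1 b)⟩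

lemma Two.a2_pair (t : Two P) (h : I2 P) (h1 : HT P v φ) (h2 : HT P w ψ) (z0 : φ ⬝ᵥ w * ψ ⬝ᵥ v ≠ 0)
    (z1 : φ ⬝ᵥ w * ψ ⬝ᵥ v ≠ 1) : ∃ c, c ≠ 0 ∧ c ∈ LL P v ∧ c ∈ LL P w := by
  have e := left_ne_zero_of_mul z0
  obtain ⟨α, a, hα⟩ := h.other h1 (ne_of_dot (right_ne_zero_of_mul z0)).2 (ne_of_dot e).1
  simpa [LL_smul (inv_ne_zero e)] using t.a2_std h1 (h2.resc e) (by simp [e]) (by simpa using z0)
    (by simpa using z1) a (by simpa using hα 0) (by simpa using hα 1)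

theorem Two.not_i2 (t : Two P) (hy : Hy P) (h1 : HT P v φ) (h2 : HT P w ψ) (z0 : φ ⬝ᵥ w * ψ ⬝ᵥ v ≠ 0)
    (z1 : φ ⬝ᵥ w * ψ ⬝ᵥ v ≠ 1) : ¬ I2 P := fun h => by
  refine lines hy h (fun u ⟨hu, χ, hχ, a⟩ => ?_) fun w w' a b => ?_
  · have e := right_ne_zero_of_mul z0
    obtain ⟨g, hg, s, -, hs, -, e1, -⟩ := hy.flag_conj h1 (ne_of_dot e).2
      (ne_of_dot (left_ne_zero_of_mul z0)).1 a hu hχ
    obtain ⟨c, c0, c1, c2⟩ := t.a2_pair h (h1.conj hg) (h2.conj hg) (by simpa only [dot_conj])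
      (by simpa only [dot_conj])
    rw [e1, LL_smul hs] at c1
    refine ⟨c, c1, fun d k => e ?_⟩
    have := c2 _ (h2.conj hg)
    rw [k, dotProduct_smul, smul_eq_zero] at this
    rw [← dot_conj g, e1, dotProduct_smul, this.resolve_left (by rintro rfl; simp [c0] at k), smul_zero]
  by_cases e : w ∈ LL P w'
  · exact Or.inl ⟨w, a.1, self_mem_LL w, e⟩
  obtain ⟨ψ, d, e⟩ : ∃ ψ, HT P w' ψ ∧ ψ ⬝ᵥ w ≠ 0 := by
    by_contra! k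
    exact e k
  by_cases k : ∃ γ, γ ≠ 0 ∧ HT P w γ ∧ γ ⬝ᵥ w' = 0
  · obtain ⟨γ, g0, g1, g2⟩ := k
    exact Or.inr ⟨γ, g0, fun x hx => hx _ g1, fun x hx => by simpa [e] using hx _ (g1.comm d g2)⟩
  push Not at k
  obtain ⟨α, β, hα, a1, a2, hβ⟩ := h w a
  left
  by_cases c : α ⬝ᵥ w' * ψ ⬝ᵥ w = 1
  · refine t.a2_pair h a2 d (mul_ne_zero (k _ (by simpa using hβ 0) a2) e) fun c' => ?_
    exact k _ (sub_ne_zero.2 (by simpa using hβ 1)) (a2.sub a1)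
      (mul_right_cancel₀ e (by rw [sub_dotProduct]; linear_combination c' - c))
  · exact t.a2_pair h a1 d (mul_ne_zero (k _ hα a1) e) c

/-- every centre has one axis -/
def NA (P : Subgroup (GL4 F)) : Prop :=
  ∀ ⦃v φ χ : V4 F⦄, HT P v φ → HT P v χ → v ≠ 0 → φ ≠ 0 → χ ≠ 0 → χ = φ

theorem Two.na (t : Two P) (hy : Hy P) (h1 : HT P v φ) (h2 : HT P w ψ) (z0 : φ ⬝ᵥ w * ψ ⬝ᵥ v ≠ 0)
    (z1 : φ ⬝ᵥ w * ψ ⬝ᵥ v ≠ 1) : NA P := fun u χ χ' a b hu hχ hχ' => by_contra fun e =>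
  t.not_i2 hy h1 h2 z0 z1 (hy.i2 a b hu hχ fun c k => by
    rcases t.T a (k ▸ b) hu hχ with rfl | rfl
    · simp [hχ'] at k
    · simp [e] at k)

theorem Two.nb (t : Two P) (hy : Hy P) (h1 : HT P v φ) (h2 : HT P w ψ) (z0 : φ ⬝ᵥ w * ψ ⬝ᵥ v ≠ 0)
    (z1 : φ ⬝ᵥ w * ψ ⬝ᵥ v ≠ 1) : NA (trP P) :=
  t.tr.na hy.tr h1.tr h2.tr (by rwa [dotProduct_comm v, dotProduct_comm w, mul_comm])
    (by rwa [dotProduct_comm v, dotProduct_comm w, mul_comm])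

theorem Two.ao (t : Two P) (hy : Hy P) (h1 : HT P v φ) (h2 : HT P w ψ) (z0 : φ ⬝ᵥ w * ψ ⬝ᵥ v ≠ 0)
    (z1 : φ ⬝ᵥ w * ψ ⬝ᵥ v ≠ 1) : AO P := by_contra fun e =>
  t.not_i2 hy h1 h2 z0 z1 (hy.i2_of_not e)

lemma symp_std (hy : Hy P) (t2 : (2 : F) = 0) (ho : AO P) (h1 : HT P v φ) (h2 : HT P w ψ)
    (e0 : φ ⬝ᵥ w ≠ 0) (e1 : ψ ⬝ᵥ v = φ ⬝ᵥ w)
    (h : ∀ u χ, HT P u χ → ψ ⬝ᵥ u * χ ⬝ᵥ v = φ ⬝ᵥ u * χ ⬝ᵥ w) : Symp P := by
  have hv : v ≠ 0 := (ne_of_dot (e1 ▸ e0 : ψ ⬝ᵥ v ≠ 0)).2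
  have hw : w ≠ 0 := (ne_of_dot e0).2
  let S : V4 F → V4 F → Prop := fun u χ => HT P u χ ∧ χ ⬝ᵥ v = φ ⬝ᵥ u ∧ χ ⬝ᵥ w = ψ ⬝ᵥ u ∧
    (φ ⬝ᵥ u ≠ 0 ∨ ψ ⬝ᵥ u ≠ 0)
  have norm : ∀ u χ, HT P u χ → χ ≠ 0 → (φ ⬝ᵥ u ≠ 0 ∨ ψ ⬝ᵥ u ≠ 0) → ∃ c : F, c ≠ 0 ∧ S (c⁻¹ • u) (c • χ) := by
    intro u χ a hχ k
    have := h u χ a
    rcases k with k | k
    · have k' : χ ⬝ᵥ v ≠ 0 := fun e => k (ho a h1 hχ hv e)
      obtain ⟨c, hc⟩ := H7.exists_sq_eq_of_two_eq_zero t2 (φ ⬝ᵥ u / χ ⬝ᵥ v)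
      have c0 : c ≠ 0 := by rintro rfl; exact div_ne_zero k k' (by simpa using hc.symm)
      rw [eq_div_iff k'] at hc
      refine ⟨c, c0, a.resc c0, ?_, ?_, Or.inl (by simp [k, c0])⟩ <;>
        simp only [smul_dotProduct, dotProduct_smul, smul_eq_mul] <;> field_simp
      · exact hc
      · exact mul_left_cancel₀ k' (by linear_combination (χ ⬝ᵥ w) * hc - this)
    · have k' : χ ⬝ᵥ w ≠ 0 := fun e => k (ho a h2 hχ hw e)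
      obtain ⟨c, hc⟩ := H7.exists_sq_eq_of_two_eq_zero t2 (ψ ⬝ᵥ u / χ ⬝ᵥ w)
      have c0 : c ≠ 0 := by rintro rfl; exact div_ne_zero k k' (by simpa using hc.symm)
      rw [eq_div_iff k'] at hc
      refine ⟨c, c0, a.resc c0, ?_, ?_, Or.inr (by simp [k, c0])⟩ <;>
        simp only [smul_dotProduct, dotProduct_smul, smul_eq_mul] <;> field_simp
      · exact mul_left_cancel₀ k' (by linear_combination (χ ⬝ᵥ v) * hc + this)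
      · exact hc
  have sym0 : ∀ u χ u' χ', S u χ → S u' χ' → ψ ⬝ᵥ u' * φ ⬝ᵥ u - ψ ⬝ᵥ u * φ ⬝ᵥ u' ≠ 0 → χ ⬝ᵥ u' = χ' ⬝ᵥ u := by
    rintro u χ u' χ' ⟨a, a1, a2, -⟩ ⟨b, b1, b2, -⟩ k
    have := h _ _ (a.conjT b)
    simp only [dotProduct_add, dotProduct_smul, sub_dotProduct, smul_dotProduct, a1, a2, b1, b2,
      smul_eq_mul] at this
    exact mul_left_cancel₀ k (by
      linear_combination this - (χ' ⬝ᵥ u * (ψ ⬝ᵥ u' * φ ⬝ᵥ u - ψ ⬝ᵥ u * φ ⬝ᵥ u')) * t2)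
  have sym : ∀ u χ u' χ', S u χ → S u' χ' → χ ⬝ᵥ u' = χ' ⬝ᵥ u := by
    intro u χ u' χ' a b
    by_contra k
    have D : ψ ⬝ᵥ u' * φ ⬝ᵥ u - ψ ⬝ᵥ u * φ ⬝ᵥ u' = 0 := by_contra fun e => k (sym0 _ _ _ _ a b e)
    by_cases c : φ ⬝ᵥ u * φ ⬝ᵥ u' = 0
    · have c' : ψ ⬝ᵥ u * ψ ⬝ᵥ u' ≠ 0 := by
        have k1 := a.2.2.2; have k2 := b.2.2.2
        clear * - k1 k2 D c
        grind
      have := sym0 _ _ _ _ a ⟨b.1.conjT h2, by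
        simp [b.2.1, b.2.2.1, e1]; linear_combination -(ψ ⬝ᵥ u' * φ ⬝ᵥ w) * t2,
        by simp [b.2.2.1, h2.1], Or.inr (by simpa [h2.1] using right_ne_zero_of_mul c')⟩ (by
          simp only [dotProduct_add, dotProduct_smul, h2.1, smul_eq_mul]
          exact fun e => mul_ne_zero c' e0 (by linear_combination D - e))
      simp [a.2.2.1, b.2.2.1] at this
      exact k (by linear_combination this - (ψ ⬝ᵥ u' * ψ ⬝ᵥ u) * t2)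
    · have := sym0 _ _ _ _ a ⟨b.1.conjT h1, by simp [b.2.1, h1.1], by
        simp [b.2.1, b.2.2.1, e1]; linear_combination -(φ ⬝ᵥ u' * φ ⬝ᵥ w) * t2,
        Or.inl (by simpa [h1.1] using right_ne_zero_of_mul c)⟩ (by
          simp only [dotProduct_add, dotProduct_smul, h1.1, smul_eq_mul, e1]
          exact fun e => mul_ne_zero c e0 (by linear_combination e - D))
      simp [a.2.1, b.2.1] at this
      exact k (by linear_combination this - (φ ⬝ᵥ u' * φ ⬝ᵥ u) * t2)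
  let Φ : GL4 F → Prop := fun g => ∀ u χ u' χ', S u χ → S u' χ' →
    χ ⬝ᵥ (g : M4 F) *ᵥ u' = χ' ⬝ᵥ ((g⁻¹ : GL4 F) : M4 F) *ᵥ u
  have st : ∀ u χ (a : HT P u χ), (φ ⬝ᵥ u ≠ 0 ∨ ψ ⬝ᵥ u ≠ 0) → ∀ g, Φ g → Φ (tvU u χ a.1 * g) := by
    intro u χ a k g ih
    by_cases hχ : χ = 0
    · rwa [show tvU u χ a.1 = 1 from Units.ext (by simp [tvU_val, hχ]), one_mul]
    obtain ⟨c, c0, s⟩ := norm u χ a hχ k
    rw [show tvU u χ a.1 = tvU _ _ s.1.1 from Units.ext (by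
      rw [tvU_val, tvU_val, vv_smul, smul_vv, smul_smul, mul_inv_cancel₀ c0, one_smul])]
    generalize c⁻¹ • u = u at s
    generalize c • χ = χ at s
    intro x ρ x' ρ' b b'
    rw [_root_.mul_inv_rev, Units.val_mul, Units.val_mul, ← mulVec_mulVec, ← mulVec_mulVec, tvU_val,
      tvU_inv, tv_mulVec, tv_mulVec]
    simp only [dotProduct_add, dotProduct_smul, mulVec_add, mulVec_smul, neg_dotProduct, smul_eq_mul,
      ih _ _ _ _ b b', ih _ _ _ _ s b', sym _ _ _ _ b s]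
    linear_combination (χ ⬝ᵥ x * ρ' ⬝ᵥ ((g⁻¹ : GL4 F) : M4 F) *ᵥ u) * t2
  have s1 : S v φ := ⟨h1, rfl, e1.symm, Or.inr (e1 ▸ e0)⟩
  refine hy.symp h1 hv (ne_of_dot e0).1 fun g hg => ?_
  rw [← hy.ind (p := Φ) (fun _ _ _ _ a b => by simpa using sym _ _ _ _ a b) (fun u χ a A _ ih => ?_) hg
    _ _ _ _ s1 s1]
  · linear_combination (φ ⬝ᵥ (g : M4 F) *ᵥ v) * t2
  by_cases k : φ ⬝ᵥ u ≠ 0 ∨ ψ ⬝ᵥ u ≠ 0
  · exact st u χ a k A ih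
  push Not at k
  by_cases hu : u = 0
  · rwa [show tvU u χ a.1 = 1 from Units.ext (by simp [tvU_val, hu]), one_mul]
  obtain ⟨x, ρ, b, b1, b2⟩ := hy.opp' hu (ne_of_dot e0).1
  have := st _ _ b.neg (Or.inl b1) _ (st _ _ (a.conjT b) (Or.inl (by simp [k.1, b1, b2])) _
    (st _ _ b (Or.inl b1) A ih))
  rwa [← mul_assoc, ← mul_assoc, show tvU x (-ρ) b.neg.1 * tvU _ _ (a.conjT b).1 * tvU x ρ b.1 =
    tvU u χ a.1 from Units.ext (by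
      simp only [Units.val_mul, tvU_val, mul_add, add_mul, mul_one, one_mul, vv_mul_vv, vv_smul, vv_neg,
        add_vv, vv_sub, smul_vv, b.1, zero_smul, smul_mul_assoc, mul_smul_comm, smul_zero, add_zero,
        mul_neg, neg_zero, neg_mul, mul_sub, sub_mul, sub_zero]
      module)] at this

theorem symp_of_pair (hy : Hy P) (t2 : (2 : F) = 0) (ho : AO P) (h1 : HT P v φ) (h2 : HT P w ψ)
    (z0 : φ ⬝ᵥ w * ψ ⬝ᵥ v ≠ 0)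
    (h : ∀ u χ, HT P u χ → φ ⬝ᵥ w * ψ ⬝ᵥ u * χ ⬝ᵥ v = φ ⬝ᵥ u * χ ⬝ᵥ w * ψ ⬝ᵥ v) : Symp P := by
  obtain ⟨a, b⟩ := mul_ne_zero_iff.1 z0
  obtain ⟨c, hc⟩ := H7.exists_sq_eq_of_two_eq_zero t2 (φ ⬝ᵥ w / ψ ⬝ᵥ v)
  have c0 : c ≠ 0 := by rintro rfl; exact div_ne_zero a b (by simpa using hc.symm)
  rw [eq_div_iff b] at hc
  refine symp_std hy t2 ho h1 (h2.resc c0) (by simp [a, c0]) ?_ fun u χ d => ?_ <;>
    simp only [smul_dotProduct, dotProduct_smul, smul_eq_mul] <;> field_simp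
  · exact hc
  · exact mul_left_cancel₀ b (by linear_combination (ψ ⬝ᵥ u * χ ⬝ᵥ v) * hc + h u χ d)

end Cfsg.Agent.H4.TV
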