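import Cfsg.Agent.H7.PA9
import Cfsg.Agent.LD.ZS3

/-! Three transvections in dimension three, root groups of order two. -/

set_option autoImplicit false
set_option linter.unusedSectionVars false
set_option linter.unusedVariables false
set_option linter.unnecessarySimpa false
set_option linter.style.haveILetI false
set_option linter.unusedSimpArgs false

namespace Cfsg.Agent.H4.T3

open Cfsg.Geo Matrix Cfsg.Agent.H8 Cfsg.Agent.H8.M3 Cfsg.Agent.H7.PA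
open scoped MatrixGroups

attribute [-simp] cons_dotProduct dotProduct_cons

lemma odd_dec {G : Type*} [Group G] [Finite G] {N : Subgroup G} (hN : N.Normal) (ho : Odd (Nat.card N))
    {t a b : G} (ht : t * t = 1) (ha : a * a = 1) (hb : b * b = 1) (h1 : t * a ∈ N) (h2 : t * b ∈ N) :
    ∃ c, Odd (orderOf c) ∧ c * t = t * c ∧ ((∀ x, c * x = x * c) →
      t * a * (t * b) = c * c * (t * b * (t * a))) := by
  have od : ∀ x ∈ N, Odd (orderOf x) := fun x hx => ho.of_dvd_nat (N.orderOf_dvd_natCard hx)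
  have ti := inv_eq_of_mul_eq_one_right ht
  have ai := inv_eq_of_mul_eq_one_right ha
  have bi := inv_eq_of_mul_eq_one_right hb
  obtain ⟨n, hn⟩ : ∃ n, n = t * a * (t * b) := ⟨_, rfl⟩
  have m : n ∈ N := hn ▸ N.mul_mem h1 h2
  obtain ⟨y, hy⟩ : ∃ y, y = n⁻¹ * (t * n * t⁻¹) := ⟨_, rfl⟩
  have my : y ∈ N := hy ▸ N.mul_mem (N.inv_mem m) (hN.conj_mem _ m t)
  obtain ⟨k, hk⟩ := od y my
  have y1 : t * y * t⁻¹ = y⁻¹ := by
    rw [hy, show t * (n⁻¹ * (t * n * t⁻¹)) * t⁻¹ = t * n⁻¹ * (t * n * (t * t)⁻¹) by group, ht, ti]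
    group
    simp [ti]
  have y2 : t * y ^ k * t⁻¹ = (y ^ k)⁻¹ := by rw [← conj_pow, y1, inv_pow]
  have y3 : y * y ^ k = (y ^ k)⁻¹ := by
    rw [eq_inv_iff_mul_eq_one, ← pow_succ', ← pow_add, show k + 1 + k = 2 * k + 1 by ring, ← hk,
      pow_orderOf_eq_one]
  have e : t * (n * (y ^ k)⁻¹) * t⁻¹ = n * (y ^ k)⁻¹ := by
    rw [show t * (n * (y ^ k)⁻¹) * t⁻¹ = n * (n⁻¹ * (t * n * t⁻¹)) * (t * y ^ k * t⁻¹)⁻¹ by group, ← hy,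
      y2, inv_inv, mul_assoc, y3]
  refine ⟨n * (y ^ k)⁻¹, od _ (N.mul_mem m (N.inv_mem (N.pow_mem my k))),
    (mul_inv_eq_iff_eq_mul.1 e).symm, fun hc => ?_⟩
  have e1 : t * n * t⁻¹ = n * (y ^ k)⁻¹ * (y ^ k)⁻¹ := by
    rw [show t * n * t⁻¹ = t * (n * (y ^ k)⁻¹) * t⁻¹ * (t * y ^ k * t⁻¹) by group, e, y2]
  have e2 : n * (t * n * t⁻¹) = n * (y ^ k)⁻¹ * (n * (y ^ k)⁻¹) := by
    rw [e1, hc (y ^ k)⁻¹, ← mul_assoc]
  rw [← e2, ← hn, mul_assoc, eq_comm, mul_eq_left, hn, ti,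
    show t * (t * a * (t * b)) * t * (t * b * (t * a)) = t * t * a * t * (b * (t * t) * b) * t * a by group,
    ht, mul_one b, hb, one_mul, mul_one, mul_assoc a, ht, mul_one, ha]

variable {F : Type*} [Field F] {P : Subgroup (GL3 F)} {u v w o φ ψ χ θ : V3 F}

lemma cen_std (hd : Det P) (t2 : (2 : F) = 0) {g : GL3 F} (hg : g ∈ P) (ho : Odd (orderOf g))
    (e : (g : Mt F) * vv ![1, 0, 0] ![0, 1, 0] = vv ![1, 0, 0] ![0, 1, 0] * (g : Mt F)) :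
    (∃ c : F, (g : Mt F) = c • 1) ∨
      ∃ o θ, Hm P o θ ∧ θ ⬝ᵥ ![1, 0, 0] = 0 ∧ ![0, 1, 0] ⬝ᵥ o = 0 := by
  have d := hd g hg
  rw [det_fin_three] at d
  have E := fun i j => congrFun (congrFun e i) j
  have e00 := E 0 0; have e01 := E 0 1; have e02 := E 0 2; have e11 := E 1 1; have e21 := E 2 1
  simp only [mul_apply, Fin.sum_univ_three, vv_apply] at e00 e01 e02 e11 e21
  simp at e00 e01 e02 e11 e21
  obtain ⟨a, b, x, y, z, eg⟩ : ∃ a b x y z : F, (g : Mt F) = !![a, y, x; 0, a, 0; 0, z, b] :=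
    ⟨g 0 0, g 2 2, g 0 2, g 0 1, g 2 1, by
      ext i j; fin_cases i <;> fin_cases j <;> simp [e11, ← e01, ← e02, e21]⟩
  simp [eg] at d
  have a0 : a ≠ 0 := by rintro rfl; simp at d
  have g2 : ((g * g : GL3 F) : Mt F) = (a * a) • (1 + vv ![x, 0, a + b] ((a * a)⁻¹ • ![0, z, a + b])) := by
    rw [Units.val_mul, eg]
    ext i j
    clear * - a0 t2
    fin_cases i <;> fin_cases j <;> simp [mul_apply, Fin.sum_univ_three] <;> field_simp <;> grind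
  by_cases hab : a + b = 0
  swap
  · exact Or.inr ⟨_, _, ⟨by simp [dot3, a0, hab], _, P.mul_mem hg hg, _, g2⟩, by simp [dot3],
      by simp [dot3]⟩
  left
  obtain ⟨m, hm⟩ := exists_pow_eq_self_of_coprime (x := g) (n := 4)
    ((Nat.coprime_two_left.2 ho).pow_left 2)
  refine ⟨(a * a * (a * a)) ^ m, ?_⟩
  rw [← hm, show g ^ 4 = g * g * (g * g) by simp [pow_succ, mul_assoc], Units.val_pow_eq_pow_val,
    Units.val_mul (g * g), g2, smul_mul_smul_comm, tv_mul_tv, add_assoc 1, ← two_smul F (vv _ _), t2]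
  simp [dot3, hab, smul_pow]

lemma cen_hm (hd : Det P) (t2 : (2 : F) = 0) (h1 : φ ⬝ᵥ v = 0) (h2 : ψ ⬝ᵥ w = 0) (h3 : φ ⬝ᵥ w ≠ 0)
    (h4 : ψ ⬝ᵥ v ≠ 0) {g : GL3 F} (hg : g ∈ P) (ho : Odd (orderOf g))
    (e : (g : Mt F) * vv v φ = vv v φ * (g : Mt F)) :
    (∃ c : F, (g : Mt F) = c • 1) ∨ ∃ o θ, Hm P o θ ∧ θ ⬝ᵥ v = 0 ∧ φ ⬝ᵥ o = 0 := by
  have hD := det_opp (w := (φ ⬝ᵥ w)⁻¹ • w) h1 (by simp [h2]) (by simp [h3]) h4
  obtain ⟨x, hx⟩ : ∃ x, x = fr _ _ _ hD := ⟨_, rfl⟩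
  have e1 : (x : Mt F) *ᵥ ![1, 0, 0] = v := by simp [hx, fr_mulVec]
  have e2 : φ ᵥ* (x : Mt F) = ![0, 1, 0] := by simp [hx, vecMul_fr, h1, h3]
  have e3 : vv (![1, 0, 0] : V3 F) ![0, 1, 0] = ((x⁻¹ : GL3 F) : Mt F) * vv v φ * (x : Mt F) := by
    rw [conj_vv, e2, ← e1, inv_mulVec_mulVec]
  rcases cen_std (hd.cj x) t2 (mem_cjP'.2 hg) (by
    rwa [show x⁻¹ * g * x = MulAut.conj x⁻¹ g by simp, MulEquiv.orderOf_eq]) (by
      rw [e3, Units.val_mul, Units.val_mul]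
      simp only [mul_assoc, Units.mul_inv_cancel_left]
      rw [← mul_assoc (g : Mt F), e, mul_assoc]) with ⟨c, k⟩ | ⟨o, θ, k, k1, k2⟩
  · refine Or.inl ⟨c, ?_⟩
    rw [show g = x * (x⁻¹ * g * x) * x⁻¹ by group, Units.val_mul, Units.val_mul, k]
    simp
  · have := k.cj x⁻¹
    rw [cjP_cjP, inv_inv] at this
    exact Or.inr ⟨_, _, this, by rw [← e1, dot_conj, k1], by rw [dotProduct_mulVec, e2, k2]⟩

variable [Finite F]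

lemma exists_hm (hd : Det P) (t : Two P) (ha : NA P) (hb : NA (trP P)) (h1 : HT P v φ) (h2 : HT P w ψ)
    (h3 : HT P u χ) (z0 : φ ⬝ᵥ w * ψ ⬝ᵥ v ≠ 0) (z1 : φ ⬝ᵥ w * ψ ⬝ᵥ v ≠ 1) (y0 : φ ⬝ᵥ u * χ ⬝ᵥ v ≠ 0)
    (e : φ ⬝ᵥ w * ψ ⬝ᵥ u * χ ⬝ᵥ v ≠ φ ⬝ᵥ u * χ ⬝ᵥ w * ψ ⬝ᵥ v) :
    ∃ o θ, Hm P o θ ∧ θ ⬝ᵥ v = 0 ∧ φ ⬝ᵥ o = 0 := by
  have t2 := t.two
  obtain ⟨a1, a2⟩ := mul_ne_zero_iff.1 z0
  have hv := (ne_of_dot a2).2
  have hφ := (ne_of_dot a1).1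
  have ex : ∀ {v φ} (h : HT P v φ), ∃ T : P, ((T : GL3 F) : Mt F) = 1 + vv v φ ∧ T * T = 1 := fun h =>
    ⟨⟨_, h.mem⟩, rfl, Subtype.ext (Units.ext (by
      change (1 + vv _ _) * (1 + vv _ _) = 1
      rw [tv_mul_tv, h.1, zero_smul, add_zero, add_assoc, ← two_smul F (vv _ _), t2]
      simp))⟩
  obtain ⟨T, T1, T2⟩ := ex h1
  have cj : ∀ g : P, (((g * T * g⁻¹ : P) : GL3 F) : Mt F) =
      1 + vv (((g : GL3 F) : Mt F) *ᵥ v) (φ ᵥ* (((g : GL3 F)⁻¹ : GL3 F) : Mt F)) := fun g => by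
    change ((g : GL3 F) : Mt F) * ((T : GL3 F) : Mt F) * (((g : GL3 F)⁻¹ : GL3 F) : Mt F) = _
    rw [T1, mul_add, add_mul, mul_one, Units.mul_inv, conj_vv]
  obtain ⟨N, hN, ho, hm⟩ := LD.ZS.zstar (z := T) (orderOf_eq_prime
    (by rw [pow_two, T2]) fun k => tv_not_sc h1.1 hv hφ 1 (by rw [← T1, k]; simp)) fun g k => by
    have k : ((T : GL3 F) : Mt F) * _ = _ * ((T : GL3 F) : Mt F) :=
      congrArg (fun x : P => ((x : GL3 F) : Mt F)) k.eq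
    have b := h1.conj g.2
    have b1 := gl_ne (g : GL3 F) hv
    have b2 := gl_ne' (g : GL3 F)⁻¹ hφ
    refine Subtype.ext (Units.ext ?_)
    rw [cj, T1] at k ⊢
    generalize ((g : GL3 F) : Mt F) *ᵥ v = x at *
    generalize φ ᵥ* (((g : GL3 F)⁻¹ : GL3 F) : Mt F) = ρ at *
    have k : (φ ⬝ᵥ x) • vv v ρ = (ρ ⬝ᵥ v) • vv x φ := by
      rw [tv_mul_tv, tv_mul_tv] at k
      linear_combination (norm := module) k
    have k1 : φ ⬝ᵥ x = 0 := by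
      by_contra k1
      have := congrArg (· *ᵥ x) k
      simp only [smul_mulVec, vv_mulVec, b.1, smul_smul, mul_zero, zero_smul] at this
      have k2 : ρ ⬝ᵥ v = 0 := by simpa [k1, b1] using this.symm
      simp [k1, k2, vv_eq_zero, hv, b2] at k
    obtain ⟨c, rfl⟩ := hb.ao h1 b hv hφ b2 k1
    have c0 : c ≠ 0 := by rintro rfl; simp at b1
    rw [smul_vv, ← vv_smul, ha h1 (ht_smul.1 b) hv hφ (smul_ne_zero c0 b2)]
  have inN : ∀ {w ψ} (h : HT P w ψ) (S : P), ((S : GL3 F) : Mt F) = 1 + vv w ψ → φ ⬝ᵥ w ≠ 0 →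
      ψ ⬝ᵥ v ≠ 0 → T * S ∈ N := by
    intro w ψ h S hS a1 a2
    obtain ⟨g, hg, a, b, c1, c2⟩ := opp_swap hd h1 h a1 a2
    have d := h1.conj hg
    have d1 := gl_ne g hv
    have d2 := gl_ne' g⁻¹ hφ
    rw [c1, c2, ht_smul, smul_smul] at d
    have : a * b = 1 := (t.T h d (ne_of_dot a1).2 (ne_of_dot a2).1).resolve_left (mul_ne_zero
      (by rintro rfl; exact d1 (by rw [c1, zero_smul])) (by rintro rfl; exact d2 (by rw [c2, zero_smul])))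
    have k : S = ⟨g, hg⟩ * T * ⟨g, hg⟩⁻¹ := Subtype.ext (Units.ext (by
      rw [cj, c1, c2, smul_vv, vv_smul, smul_smul, this, one_smul, hS]))
    convert hm ⟨g, hg⟩ using 1
    rw [commutatorElement_def, inv_eq_of_mul_eq_one_right T2, k]
    group
  obtain ⟨S, S1, S2⟩ := ex h2
  obtain ⟨R, R1, R2⟩ := ex h3
  obtain ⟨c, c1, c2, c3⟩ := odd_dec hN ho T2 S2 R2 (inN h2 S S1 a1 a2)
    (inN h3 R R1 (left_ne_zero_of_mul y0) (right_ne_zero_of_mul y0))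
  refine (cen_hm hd t2 h1.1 h2.1 a1 a2 c.2 (by rwa [Subgroup.orderOf_coe]) (by
    have : ((c : GL3 F) : Mt F) * ((T : GL3 F) : Mt F) = ((T : GL3 F) : Mt F) * _ :=
      congrArg (fun x : P => ((x : GL3 F) : Mt F)) c2
    simpa [T1, mul_add, add_mul] using this)).resolve_left fun ⟨s, hs⟩ => e ?_
  have k := c3 fun x => Subtype.ext (Units.ext (by simp [hs]))
  have k1 : (((T * S : P) : GL3 F) : Mt F) = ((c : GL3 F) : Mt F) * ((c : GL3 F) : Mt F) *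
      ((((T * R : P) : GL3 F) : Mt F) * (((T * S : P) : GL3 F) : Mt F) *
        ((((T * R : P) : GL3 F)⁻¹ : GL3 F) : Mt F)) :=
    congrArg (fun x : P => ((x : GL3 F) : Mt F)) ((eq_mul_inv_of_mul_eq k).trans (mul_assoc _ _ _))
  have k2 := congrArg trace k1
  rw [hs, smul_mul_smul_comm, one_mul, smul_mul_assoc, one_mul, trace_smul, trace_units_conj,
    Subgroup.coe_mul, Units.val_mul, T1, S1, tv_mul_tv] at k2
  simp only [trace_add, trace_smul, trace_vv, trace_one, h1.1, h2.1, smul_eq_mul, Fintype.card_fin,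
    Nat.cast_ofNat] at k2
  have s1 : s * s = 1 := mul_right_cancel₀ (sub_ne_zero.2 z1) (by
    linear_combination -k2 - 2 * (s * s - 1) * t2)
  have k3 : c * c = 1 := Subtype.ext (Units.ext (by simp [hs, smul_smul, s1]))
  rw [k3, one_mul, mul_assoc, mul_assoc, mul_left_cancel_iff] at k
  have k4 : (((S : GL3 F) : Mt F) * (((T : GL3 F) : Mt F) * ((R : GL3 F) : Mt F))).trace =
      (((R : GL3 F) : Mt F) * (((T : GL3 F) : Mt F) * ((S : GL3 F) : Mt F))).trace :=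
    congrArg (fun x : P => ((x : GL3 F) : Mt F).trace) k
  simp only [T1, S1, R1, mul_add, add_mul, mul_one, one_mul, vv_mul_vv, mul_smul_comm, trace_add,
    trace_smul, trace_vv, h1.1, h2.1, h3.1, smul_eq_mul] at k4
  linear_combination -k4

theorem pl3 (hd : Det P) (t : Two P) (ha : NA P) (hb : NA (trP P)) (h1 : HT P v φ) (h2 : HT P w ψ)
    (h3 : HT P u χ) (z0 : φ ⬝ᵥ w * ψ ⬝ᵥ v ≠ 0) (z1 : φ ⬝ᵥ w * ψ ⬝ᵥ v ≠ 1) (y0 : φ ⬝ᵥ u * χ ⬝ᵥ v ≠ 0)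
    (x0 : ψ ⬝ᵥ u * χ ⬝ᵥ w ≠ 0) (e : φ ⬝ᵥ w * ψ ⬝ᵥ u * χ ⬝ᵥ v ≠ φ ⬝ᵥ u * χ ⬝ᵥ w * ψ ⬝ᵥ v) :
    φ ⬝ᵥ w * ψ ⬝ᵥ u * χ ⬝ᵥ v + φ ⬝ᵥ u * χ ⬝ᵥ w * ψ ⬝ᵥ v = φ ⬝ᵥ w * ψ ⬝ᵥ v ∧
      φ ⬝ᵥ u * χ ⬝ᵥ v = 1 ∧ ψ ⬝ᵥ u * χ ⬝ᵥ w = 1 := by
  have t2 := t.two
  obtain ⟨o, θ, H, p1, p2⟩ := exists_hm hd t ha hb h1 h2 h3 z0 z1 y0 e
  obtain ⟨a1, a2⟩ := mul_ne_zero_iff.1 z0
  obtain ⟨b1, b2⟩ := mul_ne_zero_iff.1 y0
  obtain ⟨c1, c2⟩ := mul_ne_zero_iff.1 x0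
  have m0 := H.1
  have f1 := fun {o θ} (H : Hm P o θ) => H.flag hd t ha hb h1 (ne_of_dot a2).2 (ne_of_dot a1).1
  have f2 := fun {o θ} (H : Hm P o θ) => H.flag hd t ha hb h2 (ne_of_dot a1).2 (ne_of_dot a2).1
  have f3 := fun {o θ} (H : Hm P o θ) => H.flag hd t ha hb h3 (ne_of_dot b1).2 (ne_of_dot b2).1
  obtain ⟨p3, p4⟩ : θ ⬝ᵥ w = 0 ∧ ψ ⬝ᵥ o = 0 := (f2 H).resolve_right fun k => by
    have := f1 (H.conjT h2)
    simp only [sub_dotProduct, dotProduct_add, smul_dotProduct, dotProduct_smul, p1, p2, h2.1,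
      smul_eq_mul] at this
    clear * - this k m0 z0 z1 t2
    grind
  obtain ⟨β, hβ⟩ := (perp2 (v := o) (w := u - (φ ⬝ᵥ u / φ ⬝ᵥ w) • w - (ψ ⬝ᵥ u / ψ ⬝ᵥ v) • v) p2
    (by simp [h1.1, a1]) p4 (by simp [h2.1, a2]) (ne_of_dot a1).1 (ne_of_dot m0).2).resolve_left
    fun ⟨c, k⟩ => a2 (by simp [k, h1.1])
  have q1 := congrArg (θ ⬝ᵥ ·) hβ
  have q2 := congrArg (χ ⬝ᵥ ·) hβ
  simp only [dotProduct_sub, dotProduct_smul, p1, p3, h3.1, smul_eq_mul, mul_zero, sub_zero] at q1 q2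
  field_simp at q2
  have p5 : θ ⬝ᵥ u * χ ⬝ᵥ o = θ ⬝ᵥ o := (f3 H).resolve_left fun k => e (by
    rw [k.2] at q2
    linear_combination -q2 - (φ ⬝ᵥ u * χ ⬝ᵥ w * ψ ⬝ᵥ v) * t2)
  have g1 := f1 (H.conjT h3)
  have g2 := f2 (H.conjT h3)
  simp only [sub_dotProduct, dotProduct_add, smul_dotProduct, dotProduct_smul, p1, p2, p3, p4, h3.1,
    smul_eq_mul] at g1 g2
  refine ⟨?_, ?_, ?_⟩
  · apply mul_left_cancel₀ m0
    rw [q1] at p5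
    linear_combination -(θ ⬝ᵥ o) * q2 - (φ ⬝ᵥ w * ψ ⬝ᵥ v) * p5 - (θ ⬝ᵥ o * φ ⬝ᵥ w * ψ ⬝ᵥ v) * t2
  · clear * - g1 p5 m0 b1 b2 t2
    grind
  · clear * - g2 p5 m0 c1 c2 t2
    grind

end Cfsg.Agent.H4.T3
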