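import Cfsg.Agent.H4.TV.T5
import Cfsg.Agent.H4.TV.T6
import Cfsg.Agent.H7.AschSmall

/-! Groups generated by transvections in dimension four: the monomial case. -/

set_option autoImplicit false
set_option linter.unusedSectionVars false
set_option linter.unusedVariables false
set_option linter.unnecessarySimpa false
set_option linter.style.haveILetI false
set_option linter.unusedSimpArgs false

namespace Cfsg.Agent.H4.TV

open Cfsg.Geo Matrix
open scoped MatrixGroups commutatorElement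

attribute [-simp] cons_dotProduct dotProduct_cons

variable {F : Type*} [Field F] {P Q : Subgroup (GL4 F)} {u v w x y o φ ψ χ η α β : V4 F}

/-- every axis has one centre -/
def NB (P : Subgroup (GL4 F)) : Prop :=
  ∀ ⦃v w φ : V4 F⦄, HT P v φ → HT P w φ → φ ≠ 0 → v ≠ 0 → w ≠ 0 → w = v

lemma NA.nb (h : NA (trP P)) : NB P := fun v w φ a b => h a.tr b.tr

lemma NA.cj (h : NA P) (g : GL4 F) : NA (cjP P g) := fun v φ χ a b hv hφ hχ => by
  simpa using congrArg (· ᵥ* (g : M4 F)) (h a.of_cj b.of_cj (gl_ne _ hv) (gl_ne' _ hφ) (gl_ne' _ hχ))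

lemma NB.cj (h : NB P) (g : GL4 F) : NB (cjP P g) := fun v w φ a b hφ hv hw =>
  gl_inj g (h a.of_cj b.of_cj (gl_ne' _ hφ) (gl_ne _ hv) (gl_ne _ hw))

lemma AO.cj (h : AO P) (g : GL4 F) : AO (cjP P g) := fun v φ w ψ a b hφ hw e => by
  simpa only [dot_conj] using h a.of_cj b.of_cj (gl_ne' _ hφ) (gl_ne _ hw) (by rwa [dot_conj])

lemma perf_cj (h : ⁅P, P⁆ = P) (g : GL4 F) : ⁅cjP P g, cjP P g⁆ = cjP P g := by
  have : cjP P g = P.map (MulAut.conj g).symm.toMonoidHom :=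
    (Subgroup.map_equiv_eq_comap_symm' (MulAut.conj g).symm P).symm
  rw [this, ← Subgroup.map_commutator, h]

/-- the frame with given columns -/
def cols4 (a b c d : V4 F) : M4 F := of fun i j => ![a, b, c, d] j i

lemma cols4_mulVec (a b c d s : V4 F) : cols4 a b c d *ᵥ s = s 0 • a + s 1 • b + s 2 • c + s 3 • d := by
  ext i; simp [cols4, mulVec, dot4]; ring

lemma exists_frame {a b c d : V4 F}
    (h : ∀ s : V4 F, s 0 • a + s 1 • b + s 2 • c + s 3 • d = 0 → s = 0) : ∃ g : GL4 F, ∀ x φ,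
      HT P (x 0 • a + x 1 • b + x 2 • c + x 3 • d) φ → HT (cjP P g) x ![φ ⬝ᵥ a, φ ⬝ᵥ b, φ ⬝ᵥ c, φ ⬝ᵥ d] := by
  have hD : (cols4 a b c d).det ≠ 0 := fun e => by
    obtain ⟨s, hs, e⟩ := exists_mulVec_eq_zero_iff.2 e
    exact hs (h s (cols4_mulVec a b c d s ▸ e))
  refine ⟨GeneralLinearGroup.mkOfDetNeZero _ hD, fun x φ k => ?_⟩
  rw [show ![φ ⬝ᵥ a, φ ⬝ᵥ b, φ ⬝ᵥ c, φ ⬝ᵥ d] = φ ᵥ* cols4 a b c d from
    ext4 rfl rfl rfl rfl]
  exact ht_cj.2 ((cols4_mulVec a b c d x).symm ▸ k)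

/-- block matrices -/
def e4 (A : Matrix (Fin 3) (Fin 3) F) : M4 F :=
  !![A 0 0, A 0 1, A 0 2, 0; A 1 0, A 1 1, A 1 2, 0; A 2 0, A 2 1, A 2 2, 0; 0, 0, 0, 1]

/-- block matrices -/
def e4H : Matrix (Fin 3) (Fin 3) F →* M4 F where
  toFun := e4
  map_one' := by ext i j; fin_cases i <;> fin_cases j <;> simp [e4]
  map_mul' A B := by
    ext i j
    fin_cases i <;> fin_cases j <;> simp [e4, mul_apply, Fin.sum_univ_four, Fin.sum_univ_three]

lemma det_e4 (A : Matrix (Fin 3) (Fin 3) F) : (e4 A).det = A.det := by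
  rw [det_succ_row _ 3, Fin.sum_univ_four]
  simp [e4, det_fin_three, Fin.succAbove]
  norm_num

/-- extension by zero -/
def ex (x : Fin 3 → F) : V4 F := ![x 0, x 1, x 2, 0]

lemma ex_inj {x y : Fin 3 → F} (h : ex x = ex y) : x = y :=
  H7.PA.ext3 (congrFun h 0) (congrFun h 1) (congrFun h 2)

lemma ex_ne {x : Fin 3 → F} (h : x ≠ 0) : ex x ≠ 0 := fun e =>
  h (H7.PA.ext3 (congrFun e 0) (congrFun e 1) (congrFun e 2))

lemma ex_smul (c : F) (x : Fin 3 → F) : ex (c • x) = c • ex x := by simp [ex]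

lemma e4_tv (x ξ : Fin 3 → F) : e4 (1 + H8.M3.vv x ξ) = 1 + vv (ex x) (ex ξ) := by
  ext i j; fin_cases i <;> fin_cases j <;> simp [e4, ex]

lemma ex_dot (x ξ : Fin 3 → F) : ex x ⬝ᵥ ex ξ = x ⬝ᵥ ξ := by simp [ex, dot4, H7.PA.dot3]

lemma ht3 {x ξ : Fin 3 → F} : H7.PA.HT (P.comap (Units.map e4H)) x ξ ↔ HT P (ex x) (ex ξ) :=
  ⟨fun h => ⟨by rw [ex_dot, h.1], _, h.mem, e4_tv _ _⟩, fun h => ⟨by rw [← ex_dot, h.1],
    H7.PA.tvU x ξ (by rw [← ex_dot, h.1]), by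
      rw [Subgroup.mem_comap, show Units.map e4H (H7.PA.tvU x ξ (by rw [← ex_dot, h.1])) = tvU _ _ h.1 from
        Units.ext (e4_tv x ξ)]
      exact h.mem, rfl⟩⟩

lemma mono_false (hy : Hy P) (hp : ⁅P, P⁆ = P) (b : Fin 4 → V4 F) (hb : ∀ j, b j ≠ 0)
    (h : ∀ v φ, HT P v φ → ∀ j, ∃ l, ∃ a : F, b j + (φ ⬝ᵥ b j) • v = a • b l) : False := by
  have mon : ∀ g ∈ P, ∀ j, ∃ l, ∃ a : F, (g : M4 F) *ᵥ b j = a • b l := fun g hg =>
    hy.ind (p := fun g => ∀ j, ∃ l, ∃ a : F, (g : M4 F) *ᵥ b j = a • b l)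
      (fun j => ⟨j, 1, by simp⟩) (fun v φ k A _ ih j => by
        obtain ⟨l, a, e⟩ := ih j
        obtain ⟨m, c, e'⟩ := h v φ k l
        exact ⟨m, a * c, by rw [Units.val_mul, ← mulVec_mulVec, e, mulVec_smul, tvU_val, tv_mulVec, e',
          smul_smul]⟩) hg
  have := H7.perfect_fix_submodule hp (S := Set.range fun j => Submodule.span F {b j})
    (Set.finite_range _) (by
      rw [← Set.image_univ]
      exact (Set.ncard_image_le).trans (by simp [Set.ncard_univ])) (by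
      rintro g hg _ ⟨j, rfl⟩
      obtain ⟨l, a, e⟩ := mon g hg j
      refine ⟨l, ?_⟩
      rw [Submodule.map_span, Set.image_singleton, toLin'_apply, e,
        Submodule.span_singleton_smul_eq (Ne.isUnit (by
          rintro rfl; exact gl_ne g (hb j) (by rw [e, zero_smul])))])
  obtain ⟨θ, θ0, θ1, -⟩ := exists_perp (b 0) 0 0
  obtain ⟨g, hg, e⟩ := hy.irr _ θ (hb 0) θ0
  obtain ⟨c, k⟩ := Submodule.mem_span_singleton.1 ((this g hg (Submodule.span F {b 0}) ⟨0, rfl⟩).le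
    (Submodule.mem_map_of_mem (Submodule.mem_span_singleton_self (b 0))))
  rw [toLin'_apply] at k
  simp [← k, dotProduct_comm θ, θ1] at e

variable [Finite F]

lemma pl4_std (hy : Hy P) (t : Two P) (ha : NA P) (hb : NB P) {a b c d e f : F}
    (h1 : HT P ![1, 0, 0, 0] ![0, a, b, 0]) (h2 : HT P ![0, 1, 0, 0] ![c, 0, d, 0])
    (h3 : HT P ![0, 0, 1, 0] ![e, f, 0, 0]) (z0 : a * c ≠ 0) (z1 : a * c ≠ 1) (y0 : b * e ≠ 0)
    (x0 : d * f ≠ 0) (k : a * d * e ≠ b * f * c) :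
    a * d * e + b * f * c = a * c ∧ b * e = 1 ∧ d * f = 1 := by
  have k1 : H7.PA.HT (P.comap (Units.map e4H)) ![1, 0, 0] ![0, a, b] := ht3.2 h1
  have k2 : H7.PA.HT (P.comap (Units.map e4H)) ![0, 1, 0] ![c, 0, d] := ht3.2 h2
  have k3 : H7.PA.HT (P.comap (Units.map e4H)) ![0, 0, 1] ![e, f, 0] := ht3.2 h3
  have hd : H7.PA.Det (P.comap (Units.map e4H)) := fun A hA => by
    rw [← det_e4]; exact hy.det _ hA
  have ht : H7.PA.Two (P.comap (Units.map e4H)) :=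
    ⟨t.two, fun v φ s a b hv hφ => t.T (ht3.1 a) (ex_smul s φ ▸ ht3.1 b) (ex_ne hv) (ex_ne hφ)⟩
  have na : H7.PA.NA (P.comap (Units.map e4H)) :=
    fun v φ χ a b hv hφ hχ => ex_inj (ha (ht3.1 a) (ht3.1 b) (ex_ne hv) (ex_ne hφ) (ex_ne hχ))
  have nb : H7.PA.NA (H7.PA.trP (P.comap (Units.map e4H))) :=
    fun v φ χ a b hv hφ hχ => ex_inj (hb (ht3.1 (H7.PA.ht_tr.1 a)) (ht3.1 (H7.PA.ht_tr.1 b))
      (ex_ne hv) (ex_ne hφ) (ex_ne hχ))
  have := T3.pl3 hd ht na nb k1 k2 k3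
  simp only [H7.PA.dot3, cons_val_zero, cons_val_one, cons_val, mul_zero, mul_one, add_zero,
    zero_add] at this
  exact this z0 z1 y0 x0 k

omit [Finite F] in
lemma gram3 {a b c d e f x y z : F} (t2 : (2 : F) = 0) (k : a * d * e ≠ b * f * c)
    (k1 : y * a + z * b = 0) (k2 : x * c + z * d = 0) (k3 : x * e + y * f = 0) :
    x = 0 ∧ y = 0 ∧ z = 0 := by
  have k0 := sub_ne_zero.2 k
  refine ⟨mul_left_cancel₀ k0 ?_, mul_left_cancel₀ k0 ?_, mul_left_cancel₀ k0 ?_⟩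
  · linear_combination (a * d) * k3 - (f * d) * k1 + (f * b) * k2 - (x * b * f * c) * t2
  · linear_combination (d * e) * k1 - (b * e) * k2 + (b * c) * k3 - (y * b * f * c) * t2
  · linear_combination (a * e) * k2 - (a * c) * k3 + (f * c) * k1 - (z * b * f * c) * t2

theorem pl4 (hy : Hy P) (t : Two P) (ha : NA P) (hb : NB P) (ho : AO P) (h1 : HT P v φ)
    (h2 : HT P w ψ) (h3 : HT P u χ) (z0 : φ ⬝ᵥ w * ψ ⬝ᵥ v ≠ 0) (z1 : φ ⬝ᵥ w * ψ ⬝ᵥ v ≠ 1)
    (e : φ ⬝ᵥ w * ψ ⬝ᵥ u * χ ⬝ᵥ v ≠ φ ⬝ᵥ u * χ ⬝ᵥ w * ψ ⬝ᵥ v) :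
    φ ⬝ᵥ w * ψ ⬝ᵥ u * χ ⬝ᵥ v + φ ⬝ᵥ u * χ ⬝ᵥ w * ψ ⬝ᵥ v = φ ⬝ᵥ w * ψ ⬝ᵥ v ∧
      φ ⬝ᵥ u * χ ⬝ᵥ v = 1 ∧ ψ ⬝ᵥ u * χ ⬝ᵥ w = 1 := by
  have b0 : φ ⬝ᵥ u * χ ⬝ᵥ w * ψ ⬝ᵥ v ≠ 0 := fun k => e ((ho.cyc h1 h2 h3 k).trans k.symm)
  have a0 : φ ⬝ᵥ w * ψ ⬝ᵥ u * χ ⬝ᵥ v ≠ 0 := fun k => b0 (ho.cyc h1 h3 h2 k)
  obtain ⟨o, o0, o1, o2, o3⟩ := exists_perp φ ψ χ
  obtain ⟨g, hg⟩ := exists_frame (P := P) (a := v) (b := w) (c := u) (d := o) fun s k => by
    have k1 := congrArg (φ ⬝ᵥ ·) k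
    have k2 := congrArg (ψ ⬝ᵥ ·) k
    have k3 := congrArg (χ ⬝ᵥ ·) k
    simp only [dotProduct_add, dotProduct_smul, h1.1, h2.1, h3.1, o1, o2, o3, smul_eq_mul,
      dotProduct_zero, mul_zero, add_zero, zero_add] at k1 k2 k3
    obtain ⟨s0, s1, s2⟩ := gram3 t.two e k1 k2 k3
    exact ext4 s0 s1 s2 (by simpa [s0, s1, s2, o0] using k)
  have k1 := hg ![1, 0, 0, 0] φ (by simpa using h1)
  have k2 := hg ![0, 1, 0, 0] ψ (by simpa using h2)
  have k3 := hg ![0, 0, 1, 0] χ (by simpa using h3)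
  rw [o1, h1.1] at k1
  rw [o2, h2.1] at k2
  rw [o3, h3.1] at k3
  simp only [ne_eq, mul_eq_zero, not_or] at a0 b0
  exact pl4_std (hy.cj g) (t.cj g) (ha.cj g) (hb.cj g) k1 k2 k3 z0 z1 (mul_ne_zero b0.1.1 a0.2)
    (mul_ne_zero a0.1.2 b0.1.2) e

omit [Finite F] in
lemma quad3 {p y a b c : F} (y0 : y ≠ 0) (ab : a ≠ b) (ac : a ≠ c) (bc : b ≠ c)
    (h1 : p * (a ^ 2 + y ^ 2) = a * y) (h2 : p * (b ^ 2 + y ^ 2) = b * y)
    (h3 : p * (c ^ 2 + y ^ 2) = c * y) : False := by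
  have k1 : p * (a + b) = y := mul_left_cancel₀ (sub_ne_zero.2 ab) (by linear_combination h1 - h2)
  have k2 : p * (a + c) = y := mul_left_cancel₀ (sub_ne_zero.2 ac) (by linear_combination h1 - h3)
  have p0 : p ≠ 0 := by rintro rfl; simp [y0.symm] at k1
  exact bc (mul_left_cancel₀ p0 (by linear_combination k1 - k2))

/-- transvections interchanging two coordinate lines -/
def Sw (P : Subgroup (GL4 F)) (i j : Fin 4) (c d : F) : Prop :=
  HT P (Pi.single i 1 + Pi.single j c) (Pi.single i 1 + Pi.single j d)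

section
variable (hy : Hy P) (t : Two P) (ha : NA P) (hb : NB P) (ho : AO P) {c d : F} (cd : c * d = 1)
  (c0 : c + d ≠ 0) (c1 : c + d ≠ 1) {i j : Fin 4} (ij : i ≠ j) (s1 : Sw P i j 1 1) (s2 : Sw P i j c d)
include hy t ha hb ho cd c0 c1 ij s1 s2

lemma sw_R (h : HT P u χ) : u i * χ i = u j * χ j ∨
    (u i * χ i + u j * χ j = 1 ∧ u i * χ j = 0 ∧ u j * χ i = 0) := by
  have t2 := t.two
  refine or_iff_not_imp_left.2 fun k => ?_
  have := pl4 hy t ha hb ho s1 s2 h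
  simp only [add_dotProduct, dotProduct_add, single_dotProduct, dotProduct_single, Pi.add_apply,
    Pi.single_eq_same, Pi.single_eq_of_ne ij, Pi.single_eq_of_ne ij.symm] at this
  have := this (by clear * - t2 cd c0; grind) (by clear * - t2 cd c1; grind)
    (by clear * - t2 cd c0 k; grind)
  clear * - this t2 cd c0
  grind

lemma sw_A (h : HT P u χ) (hu : u ≠ 0) (hχ : χ ≠ 0) :
    (u i + u j = 0 ↔ χ i + χ j = 0) ∧ (u i + d * u j = 0 ↔ χ i + c * χ j = 0) := by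
  have n : ∀ a : F, (Pi.single i 1 + Pi.single j a : V4 F) ≠ 0 := fun a e => by
    simpa [Pi.single_eq_of_ne ij] using congrFun e i
  have k1 := ho s1 h (n 1) hu
  have k2 := ho h s1 hχ (n 1)
  have k3 := ho s2 h (n d) hu
  have k4 := ho h s2 hχ (n c)
  simp only [add_dotProduct, dotProduct_add, single_dotProduct, dotProduct_single, one_mul, mul_one,
    mul_comm (χ j) c] at k1 k2 k3 k4
  exact ⟨⟨k1, k2⟩, k3, k4⟩

lemma sw_tw (h : HT P u χ) (hu : u j = 0) (hχ : χ j = 0) :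
    HT P (u + Pi.single i ((d - 1) * u i)) (χ + Pi.single i ((c - 1) * χ i)) := by
  have t2 := t.two
  convert (h.conjT s1).conjT s2 using 1 <;> ext l <;>
    simp only [add_dotProduct, dotProduct_add, single_dotProduct, dotProduct_single, Pi.add_apply,
      Pi.single_eq_same, Pi.single_eq_of_ne ij, Pi.single_eq_of_ne ij.symm, hu, hχ, Pi.smul_apply,
      Pi.sub_apply, sub_dotProduct, smul_dotProduct, smul_eq_mul] <;>
    simp only [Pi.single_apply] <;> split_ifs <;> (clear * - t2 cd; grind)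

end

lemma mon_std (hy : Hy P) (hp : ⁅P, P⁆ = P) (t : Two P) (ha : NA P) (hb : NB P) (ho : AO P) {c d : F}
    (cd : c * d = 1) (c0 : c + d ≠ 0) (c1 : c + d ≠ 1) (h1 : HT P ![1, 1, 0, 0] ![1, 1, 0, 0])
    (h2 : HT P ![1, c, 0, 0] ![1, d, 0, 0]) (h3 : HT P ![1, 0, 1, 0] ![1, 0, 1, 0]) : False := by
  have t2 := t.two
  have E : ∀ a : F, (Pi.single 0 1 + Pi.single 1 a : V4 F) = ![1, a, 0, 0] ∧
      (Pi.single 0 1 + Pi.single 2 a : V4 F) = ![1, 0, a, 0] ∧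
      (Pi.single 1 1 + Pi.single 2 a : V4 F) = ![0, 1, a, 0] := fun a =>
    ⟨ext4 (by simp) (by simp) (by simp) (by simp), ext4 (by simp) (by simp) (by simp) (by simp),
      ext4 (by simp) (by simp) (by simp) (by simp)⟩
  have h4 : HT P ![0, 1, 1, 0] ![0, 1, 1, 0] := by
    convert h1.conjT h3 using 1 <;> refine ext4 ?_ ?_ ?_ ?_ <;> simp [dot4] <;> (clear * - t2; grind)
  have h5 : HT P ![1, 0, c, 0] ![1, 0, d, 0] := by
    convert h2.conjT h4 using 1 <;> refine ext4 ?_ ?_ ?_ ?_ <;> simp [dot4] <;> (clear * - t2; grind)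
  have h6 : HT P ![0, 1, c, 0] ![0, 1, d, 0] := by
    convert h5.conjT h1 using 1 <;> refine ext4 ?_ ?_ ?_ ?_ <;> simp [dot4] <;> (clear * - t2; grind)
  have sym : ∀ {i j}, Sw P i j 1 1 → Sw P j i 1 1 := fun h => by
    rw [Sw, add_comm]; exact h
  have c0' : c ≠ 0 := left_ne_zero_of_mul_eq_one cd
  have s01 : Sw P 0 1 1 1 := by rw [Sw, (E _).1]; exact h1
  have s01' : Sw P 0 1 c d := by rw [Sw, (E _).1, (E _).1]; exact h2
  have s02 : Sw P 0 2 1 1 := by rw [Sw, (E _).2.1]; exact h3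
  have s02' : Sw P 0 2 c d := by rw [Sw, (E _).2.1, (E _).2.1]; exact h5
  have s12 : Sw P 1 2 1 1 := by rw [Sw, (E _).2.2]; exact h4
  have s12' : Sw P 1 2 c d := by rw [Sw, (E _).2.2, (E _).2.2]; exact h6
  have h7 : HT P ![0, 1, d, 0] ![0, 1, c, 0] := by
    have := (h6.conjT h4).resc (c := c) c0'
    rw [inv_eq_of_mul_eq_one_right cd] at this
    convert this using 1 <;> refine ext4 ?_ ?_ ?_ ?_ <;> simp [dot4] <;> (clear * - t2 cd; grind)
  have h8 : HT P ![1, d, 0, 0] ![1, c, 0, 0] := by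
    have := (h2.conjT h1).resc (c := c) c0'
    rw [inv_eq_of_mul_eq_one_right cd] at this
    convert this using 1 <;> refine ext4 ?_ ?_ ?_ ?_ <;> simp [dot4] <;> (clear * - t2 cd; grind)
  have h9 : HT P ![1, 0, d, 0] ![1, 0, c, 0] := by
    have := (h5.conjT h3).resc (c := c) c0'
    rw [inv_eq_of_mul_eq_one_right cd] at this
    convert this using 1 <;> refine ext4 ?_ ?_ ?_ ?_ <;> simp [dot4] <;> (clear * - t2 cd; grind)
  have h10 : HT P ![1, c * c, 0, 0] ![1, d * d, 0, 0] := by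
    have := (h1.conjT h2).resc (c := d) (right_ne_zero_of_mul_eq_one cd)
    rw [inv_eq_of_mul_eq_one_left cd] at this
    convert this using 1 <;> refine ext4 ?_ ?_ ?_ ?_ <;> simp [dot4] <;> (clear * - t2 cd; grind)
  have S : ∀ i j : Fin 4, i ≠ j → i ≠ 3 → j ≠ 3 → Sw P i j 1 1 ∧ Sw P i j c d := by
    have a1 : Sw P 0 1 d c := by rw [Sw, (E _).1, (E _).1]; exact h8
    have a2 : Sw P 0 2 d c := by rw [Sw, (E _).2.1, (E _).2.1]; exact h9
    have a3 : Sw P 1 2 d c := by rw [Sw, (E _).2.2, (E _).2.2]; exact h7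
    have sym'' : ∀ {i j}, Sw P i j d c → Sw P j i c d := fun {i j} h => by
      have := h.resc (right_ne_zero_of_mul_eq_one cd)
      rw [smul_add, smul_add, ← Pi.single_smul', ← Pi.single_smul', ← Pi.single_smul', ← Pi.single_smul',
        add_comm, add_comm (Pi.single i _)] at this
      simpa [Sw, right_ne_zero_of_mul_eq_one cd, cd, mul_comm d, inv_eq_of_mul_eq_one_left cd] using this
    intro i j ij hi hj
    fin_cases i <;> fin_cases j <;> simp at ij hi hj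
    exacts [⟨s01, s01'⟩, ⟨s02, s02'⟩, ⟨sym s01, sym'' a1⟩, ⟨s12, s12'⟩, ⟨sym s02, sym'' a2⟩,
      ⟨sym s12, sym'' a3⟩]
  have R := fun i j (ij : i ≠ j) hi hj u χ => sw_R (u := u) (χ := χ) hy t ha hb ho cd c0 c1 ij
    (S i j ij hi hj).1 (S i j ij hi hj).2
  have A := fun i j (ij : i ≠ j) hi hj u χ => sw_A (u := u) (χ := χ) hy t ha hb ho cd c0 c1 ij
    (S i j ij hi hj).1 (S i j ij hi hj).2
  have T := fun i j (ij : i ≠ j) hi hj u χ => sw_tw (u := u) (χ := χ) hy t ha hb ho cd c0 c1 ij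
    (S i j ij hi hj).1 (S i j ij hi hj).2
  have cn : c ≠ 1 := by rintro rfl; clear * - t2 cd c0; grind
  have cls : ∀ u χ, HT P u χ → u ≠ 0 → χ ≠ 0 → ∃ i j, i ≠ j ∧ u i * χ i = 1 ∧ u j * χ j = 1 ∧
      ∀ l, l ≠ i → l ≠ j → u l = 0 ∧ χ l = 0 := by
    intro u χ h hu hχ
    have B : ∀ i j k : Fin 4, i ≠ j → i ≠ k → j ≠ k → i ≠ 3 → j ≠ 3 → k ≠ 3 → u i * χ i = 1 → u j = 0 →
        χ j = 0 → ∃ i j, i ≠ j ∧ u i * χ i = 1 ∧ u j * χ j = 1 ∧
          ∀ l, l ≠ i → l ≠ j → u l = 0 ∧ χ l = 0 := by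
      intro i j k ij ik jk i3 j3 k3 p1 p2 p3
      have all : ∀ l, l = i ∨ l = j ∨ l = k ∨ l = 3 := by omega
      have sm : χ i * u i + χ j * u j + χ k * u k + χ 3 * u 3 = 0 := by
        rw [← h.1, dotProduct, show (Finset.univ : Finset (Fin 4)) = {i, j, k, 3} from by
          ext l; simpa using all l, Finset.sum_insert (by simp [*]), Finset.sum_insert (by simp [*]),
          Finset.sum_pair k3]
        ring
      rcases R i k ik i3 k3 u χ h with q | q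
      swap
      · have q1 : u k = 0 := by clear * - q p1; grind
        have q2 : χ k = 0 := by clear * - q p1; grind
        refine ⟨i, 3, i3, p1, by clear * - sm p1 p2 q1 t2; grind, fun l a b => ?_⟩
        rcases all l with rfl | rfl | rfl | rfl <;> simp_all
      have p4 : u 3 * χ 3 = 0 := by clear * - sm p1 p2 q t2; grind
      have k1 := T k j jk.symm k3 j3 _ _ (T i j ij i3 j3 u χ h p2 p3) (by simp [p2, ij.symm])
        (by simp [p3, ij.symm])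
      simp only [Pi.add_apply, Pi.single_eq_of_ne ik.symm, add_zero] at k1
      have p5 : u 3 = 0 ∧ χ 3 = 0 := by
        rcases mul_eq_zero.1 p4 with z | z
        · rw [show u + Pi.single i ((d - 1) * u i) + Pi.single k ((d - 1) * u k) = d • u from funext fun l => by
            rcases all l with rfl | rfl | rfl | rfl <;> simp [Pi.single_apply, *, Ne.symm] <;> ring,
            ht_smul] at k1
          have := congrFun (ha h k1 hu hχ fun e => by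
            have := congrFun e i
            simp [ik, right_ne_zero_of_mul_eq_one cd] at this
            clear * - this p1 cd
            grind) 3
          simp [i3.symm, k3.symm] at this
          exact ⟨z, by clear * - this cn cd; grind⟩
        · rw [show χ + Pi.single i ((c - 1) * χ i) + Pi.single k ((c - 1) * χ k) = c • χ from funext fun l => by
            rcases all l with rfl | rfl | rfl | rfl <;> simp [Pi.single_apply, *, Ne.symm] <;> ring,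
            ← ht_smul] at k1
          have := congrFun (hb h k1 hχ hu fun e => by
            have := congrFun e i
            simp [ik, c0'] at this
            clear * - this p1 cd
            grind) 3
          simp [i3.symm, k3.symm] at this
          exact ⟨by clear * - this cn cd; grind, z⟩
      refine ⟨i, k, ik, p1, q ▸ p1, fun l a b => ?_⟩
      rcases all l with rfl | rfl | rfl | rfl <;> simp_all
    have B' : ∀ i j k : Fin 4, i ≠ j → i ≠ k → j ≠ k → i ≠ 3 → j ≠ 3 → k ≠ 3 →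
        u i * χ i ≠ u j * χ j → ∃ i j, i ≠ j ∧ u i * χ i = 1 ∧ u j * χ j = 1 ∧
          ∀ l, l ≠ i → l ≠ j → u l = 0 ∧ χ l = 0 := by
      intro i j k ij ik jk i3 j3 k3 p
      have q := (R i j ij i3 j3 u χ h).resolve_left p
      by_cases z : u i * χ i = 0
      · exact B j i k ij.symm jk ik j3 i3 k3 (by simpa [z] using q.1) (by clear * - q z; grind)
          (by clear * - q z; grind)
      · exact B i j k ij ik jk i3 j3 k3 (by clear * - q z; grind) (by clear * - q z; grind)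
          (by clear * - q z; grind)
    by_cases p1 : u 0 * χ 0 = u 1 * χ 1
    swap
    · exact B' 0 1 2 (by simp) (by simp) (by simp) (by simp) (by simp) (by simp) p1
    by_cases p2 : u 0 * χ 0 = u 2 * χ 2
    swap
    · exact B' 0 2 1 (by simp) (by simp) (by simp) (by simp) (by simp) (by simp) p2
    exfalso
    have sm := h.1
    rw [dot4] at sm
    by_cases p0 : u 0 * χ 0 = 0
    · have a1 := A 0 1 (by simp) (by simp) (by simp) u χ h hu hχ
      have a2 := A 0 2 (by simp) (by simp) (by simp) u χ h hu hχ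
      have a3 := A 1 2 (by simp) (by simp) (by simp) u χ h hu hχ
      have : u 0 = 0 ∧ u 1 = 0 ∧ u 2 = 0 ∧ χ 0 = 0 ∧ χ 1 = 0 ∧ χ 2 = 0 := by
        clear * - a1 a2 a3 p0 p1 p2 cd cn
        grind
      obtain ⟨q0, q1, q2, q3, q4, q5⟩ := this
      simp [q0, q1, q2] at sm
      exact sm.elim (fun e => hχ (ext4 q3 q4 q5 e)) fun e => hu (ext4 q0 q1 q2 e)
    have key : ∀ a b : F, a * b = 1 → HT P ![1, a, 0, 0] ![1, b, 0, 0] → a * u 0 = u 1 ∨
        u 0 * χ 0 * ((a * u 0) ^ 2 + u 1 ^ 2) = a * u 0 * u 1 := fun a b ab k => by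
      have := R 0 2 (by simp) (by simp) (by simp) _ _ (k.conjT h)
      simp [dot4] at this
      clear * - this p0 p1 p2 ab t2
      grind
    have k1 := key 1 1 (by simp) h1
    have k2 := key c d cd h2
    have k3 := key d c (mul_comm c d ▸ cd) h8
    have k4 := key _ _ (by linear_combination (c * d + 1) * cd) h10
    have u0 : u 0 ≠ 0 := left_ne_zero_of_mul p0
    have u1 : u 1 ≠ 0 := left_ne_zero_of_mul (p1 ▸ p0)
    have n : ∀ {a b : F}, a ≠ b → a * u 0 ≠ b * u 0 := fun h e => h (mul_right_cancel₀ u0 e)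
    have n1 : (1 : F) ≠ c := cn.symm
    have n2 : (1 : F) ≠ d := by clear * - cn cd; grind
    have n3 : (1 : F) ≠ c * c := by clear * - cn t2; grind
    have n4 : c ≠ d := by clear * - c0 t2; grind
    have n5 : c ≠ c * c := by clear * - cn cd; grind
    have n6 : d ≠ c * c := by clear * - cn cd c1 t2; grind
    rcases k1 with k1 | k1
    · exact quad3 u1 (n n4) (n n5) (n n6) (k2.resolve_left (k1 ▸ (n n1).symm))
        (k3.resolve_left (k1 ▸ (n n2).symm)) (k4.resolve_left (k1 ▸ (n n3).symm))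
    rcases k2 with k2 | k2
    · exact quad3 u1 (n n2) (n n3) (n n6) k1 (k3.resolve_left (k2 ▸ (n n4).symm))
        (k4.resolve_left (k2 ▸ (n n5).symm))
    rcases k3 with k3 | k3
    · exact quad3 u1 (n n1) (n n3) (n n5) k1 k2 (k4.resolve_left (k3 ▸ (n n6).symm))
    · exact quad3 u1 (n n1) (n n2) (n n4) k1 k2 k3
  refine mono_false hy hp (fun j => Pi.single j 1) (by simp) fun u χ h j => ?_
  by_cases hu : u = 0
  · exact ⟨j, 1, by simp [hu]⟩
  by_cases hχ : χ = 0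
  · exact ⟨j, 1, by simp [hχ]⟩
  obtain ⟨a, b, ab, p1, p2, p3⟩ := cls u χ h hu hχ
  have k : ∀ a b : Fin 4, a ≠ b → u a * χ a = 1 → (∀ l, l ≠ a → l ≠ b → u l = 0 ∧ χ l = 0) →
      Pi.single a 1 + (χ ⬝ᵥ Pi.single a 1) • u = (χ a * u b) • (Pi.single b 1 : V4 F) := fun a b ab p q =>
    funext fun l => by
      by_cases la : l = a
      · simp [la, ab]; linear_combination p + t2
      by_cases lb : l = b
      · simp [lb, ab.symm]
      simp [la, lb, (q l la lb).1]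
  by_cases ja : j = a
  · exact ⟨b, _, ja ▸ k a b ab p1 p3⟩
  by_cases jb : j = b
  · exact ⟨a, _, jb ▸ k b a ab.symm p2 fun l x y => p3 l y x⟩
  exact ⟨j, 1, by simp [(p3 j ja jb).2]⟩

theorem two_case (hy : Hy P) (hp : ⁅P, P⁆ = P) (t : Two P) (h1 : HT P v φ) (h2 : HT P w ψ)
    (z0 : φ ⬝ᵥ w * ψ ⬝ᵥ v ≠ 0) (z1 : φ ⬝ᵥ w * ψ ⬝ᵥ v ≠ 1) : Symp P := by
  have t2 := t.two
  have ha := t.na hy h1 h2 z0 z1
  have hb := (t.nb hy h1 h2 z0 z1).nb
  have ho := t.ao hy h1 h2 z0 z1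
  refine symp_of_pair hy t2 ho h1 h2 z0 fun u χ h3 => by_contra fun e => ?_
  obtain ⟨p1, p2, p3⟩ := pl4 hy t ha hb ho h1 h2 h3 z0 z1 e
  have a1 := left_ne_zero_of_mul_eq_one p2
  have a2 := left_ne_zero_of_mul_eq_one p3
  have k1 := h1.resc (inv_ne_zero a1)
  have k2 := h2.resc (inv_ne_zero a2)
  rw [inv_inv] at k1 k2
  have e1 : ((φ ⬝ᵥ u)⁻¹ • φ) ⬝ᵥ u = 1 := by simp [a1]
  have e2 : ((ψ ⬝ᵥ u)⁻¹ • ψ) ⬝ᵥ u = 1 := by simp [a2]
  have e3 : χ ⬝ᵥ (φ ⬝ᵥ u) • v = 1 := by simpa using p2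
  have e4 : χ ⬝ᵥ (ψ ⬝ᵥ u) • w = 1 := by simpa using p3
  have e5 : ((φ ⬝ᵥ u)⁻¹ • φ) ⬝ᵥ (ψ ⬝ᵥ u) • w * ((ψ ⬝ᵥ u)⁻¹ • ψ) ⬝ᵥ (φ ⬝ᵥ u) • v = φ ⬝ᵥ w * ψ ⬝ᵥ v := by
    simp; field_simp
  have e6 : ((φ ⬝ᵥ u)⁻¹ • φ) ⬝ᵥ (ψ ⬝ᵥ u) • w + ((ψ ⬝ᵥ u)⁻¹ • ψ) ⬝ᵥ (φ ⬝ᵥ u) • v = φ ⬝ᵥ w * ψ ⬝ᵥ v := by
    rw [← p1, ← eq_inv_of_mul_eq_one_right p2, ← eq_inv_of_mul_eq_one_right p3]
    simp; ring
  rw [← e5] at z0 z1 e6
  clear e5 p1 p2 p3 e a1 a2 h1 h2
  generalize (φ ⬝ᵥ u) • v = v at *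
  generalize (φ ⬝ᵥ u)⁻¹ • φ = φ at *
  generalize (ψ ⬝ᵥ u) • w = w at *
  generalize (ψ ⬝ᵥ u)⁻¹ • ψ = ψ at *
  obtain ⟨a1, a2⟩ := mul_ne_zero_iff.1 z0
  obtain ⟨x, hx⟩ : ∃ x, x = (ψ ⬝ᵥ v)⁻¹ • v + (φ ⬝ᵥ w)⁻¹ • w := ⟨_, rfl⟩
  have x1 : φ ⬝ᵥ x = 1 := by simp [hx, k1.1, a1]
  have x2 : ψ ⬝ᵥ x = 1 := by simp [hx, k2.1, a2]
  have x3 : χ ⬝ᵥ x = 1 := by simp [hx, e3, e4]; field_simp; linear_combination e6
  obtain ⟨o, o0, o1, o2, o3⟩ := exists_perp φ ψ χ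
  obtain ⟨g, hg⟩ := exists_frame (P := P) (a := x) (b := x + v) (c := u + x) (d := o) fun s k => by
    have q1 := congrArg (φ ⬝ᵥ ·) k
    have q2 := congrArg (ψ ⬝ᵥ ·) k
    have q3 := congrArg (χ ⬝ᵥ ·) k
    simp only [dotProduct_add, dotProduct_smul, k1.1, h3.1, o1, o2, o3, smul_eq_mul, x1, x2, x3, e1, e2,
      e3, dotProduct_zero] at q1 q2 q3
    have s1 : s 1 = 0 := by clear * - q1 q2 a2 t2; grind
    have s0 : s 0 = 0 := by clear * - q1 s1 t2; grind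
    have s2 : s 2 = 0 := by clear * - q3 s0 t2; grind
    exact ext4 s0 s1 s2 (by simpa [s0, s1, s2, o0] using k)
  have tw : ∀ y : V4 F, y + y = 0 := fun y => by rw [← two_smul F, t2, zero_smul]
  have f1 := hg ![1, 1, 0, 0] φ (by simpa [← add_assoc, tw] using k1)
  have f2 := hg ![1, 1 + φ ⬝ᵥ w, 0, 0] ψ (by
    convert k2 using 1
    simp only [hx, cons_val_zero, cons_val_one, cons_val]
    match_scalars <;> field_simp <;> (clear * - t2 e6; grind))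
  have f3 := hg ![1, 0, 1, 0] χ (by simpa [add_left_comm x, tw] using h3)
  simp only [dotProduct_add, k1.1, h3.1, o1, o2, o3, x1, x2, x3, e1, e2, e3, add_zero, zero_add,
    one_add_one_eq_two, t2] at f1 f2 f3
  exact mon_std (hy.cj g) (perf_cj hp g) (t.cj g) (ha.cj g) (hb.cj g) (ho.cj g)
    (by linear_combination e6 + (φ ⬝ᵥ w * ψ ⬝ᵥ v) * t2) (by clear * - t2 e6 z0; grind)
    (by clear * - t2 e6 z1; grind) f1 f2 f3

end Cfsg.Agent.H4.TV
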