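import Cfsg.Agent.H4.TV.T7

/-! Groups generated by transvections in dimension four: the linear classification. -/

set_option autoImplicit false
set_option linter.unusedSectionVars false
set_option linter.unusedVariables false
set_option linter.unnecessarySimpa false
set_option linter.style.haveILetI false
set_option linter.unusedSimpArgs false

namespace Cfsg.Agent.H4.TV

open Cfsg.Geo Matrix
open scoped MatrixGroups commutatorElement

variable {F : Type*} [Field F] {H P Q : Subgroup (GL4 F)} {u v w y φ ψ χ η : V4 F}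

lemma tv_not_sc (h : φ ⬝ᵥ v = 0) (hv : v ≠ 0) (hφ : φ ≠ 0) (c : F) : 1 + vv v φ ≠ c • 1 := fun e => by
  have h1 := congrArg (· *ᵥ v) e
  simp only [tv_mulVec, h, zero_smul, add_zero, smul_mulVec, one_mulVec] at h1
  have : c = 1 := smul_left_injective F hv (h1.symm.trans (one_smul F v).symm)
  rw [this, one_smul, add_eq_left, vv_eq_zero] at e
  tauto

/-- a matrix `1 + N` with `N` of rank one and square zero gives a flag -/
lemma ht_of_minors {g : GL4 F} (hg : g ∈ P) (h1 : g ≠ 1)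
    (h2 : ((g : M4 F) - 1) * ((g : M4 F) - 1) = 0)
    (h3 : ∀ i j k l, ((g : M4 F) - 1) i k * ((g : M4 F) - 1) j l =
      ((g : M4 F) - 1) i l * ((g : M4 F) - 1) j k) : ∃ v φ, v ≠ 0 ∧ φ ≠ 0 ∧ HT P v φ := by
  have n0 : (g : M4 F) - 1 ≠ 0 := fun e => h1 (Units.ext (sub_eq_zero.1 e))
  obtain ⟨a, b, e⟩ : ∃ a b, ((g : M4 F) - 1) a b ≠ 0 := by
    by_contra! k
    exact n0 (Matrix.ext k)
  have k : (g : M4 F) - 1 = vv (fun i => ((g : M4 F) - 1) i b)
      (fun j => ((g : M4 F) - 1) a j / ((g : M4 F) - 1) a b) := by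
    ext i j
    rw [vv_apply, mul_div_assoc', h3, mul_div_cancel_right₀ _ e]
  generalize (fun i => ((g : M4 F) - 1) i b) = v at k
  generalize (fun j => ((g : M4 F) - 1) a j / ((g : M4 F) - 1) a b) = φ at k
  rw [k] at h2 n0
  rw [vv_mul_vv, smul_eq_zero, or_iff_left n0] at h2
  rw [Ne, vv_eq_zero, not_or] at n0
  exact ⟨v, φ, n0.1, n0.2, h2, g, hg, by rw [← k, add_sub_cancel]⟩

lemma det_of_perfect (hp : ⁅P, P⁆ = P) : P ≤ specialLinear (Fin 4) F := by
  rw [← hp, Subgroup.commutator_le]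
  intro a _ b _
  simp [specialLinear, MonoidHom.mem_ker, commutatorElement_def, mul_comm]

lemma irr_of_acts (hi : ActsIrreducibly (matrixSet P)) (v φ : V4 F) (hv : v ≠ 0) (hφ : φ ≠ 0) :
    ∃ g ∈ P, φ ⬝ᵥ (g : M4 F) *ᵥ v ≠ 0 := by
  by_contra! k
  let W : Submodule F (V4 F) :=
    { carrier := {w | ∀ g ∈ P, φ ⬝ᵥ (g : M4 F) *ᵥ w = 0}
      zero_mem' := fun g _ => by simp
      add_mem' := fun a b g hg => by rw [mulVec_add, dotProduct_add, a g hg, b g hg, add_zero]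
      smul_mem' := fun c x a g hg => by rw [mulVec_smul, dotProduct_smul, a g hg, smul_zero] }
  rcases hi W (by
    rintro _ ⟨g, hg, rfl⟩ _ ⟨w, hw, rfl⟩ x hx
    rw [toLin'_apply, mulVec_mulVec]
    exact hw _ (P.mul_mem hx hg)) with e | e
  · exact hv ((Submodule.mem_bot F).1 (e ▸ k))
  · refine hφ (funext fun i => ?_)
    have := (e ▸ Submodule.mem_top : Pi.single i 1 ∈ W) 1 P.one_mem
    rwa [Units.val_one, one_mulVec, dotProduct_single_one] at this

lemma gen_of_simple (hp : ⁅P, P⁆ = P) (hs : IsSimpleGroup (P ⧸ (scalars (Fin 4) F).subgroupOf P))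
    (a : HT P v φ) (hv : v ≠ 0) (hφ : φ ≠ 0) (Q : Subgroup (GL4 F))
    (hQ : ∀ g ∈ P, HT Q ((g : M4 F) *ᵥ v) (φ ᵥ* ((g⁻¹ : GL4 F) : M4 F))) : P ≤ Q := by
  let N : Subgroup P := Subgroup.normalClosure {⟨_, a.mem⟩}
  have hN : ∀ x ∈ N, (x : GL4 F) ∈ Q := fun x hx => by
    have : N ≤ Q.subgroupOf P := (Subgroup.closure_le _).2 fun y hy => by
      obtain ⟨_, rfl, e⟩ := Group.mem_conjugatesOfSet_iff.1 hy
      obtain ⟨g, rfl⟩ := isConj_iff.1 e
      have := (hQ g g.2).mem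
      refine Subgroup.mem_subgroupOf.2 ?_
      convert this using 1
      refine Units.ext ?_
      change ((g : GL4 F) : M4 F) * (1 + vv v φ) * (((g : GL4 F)⁻¹ : GL4 F) : M4 F) = 1 + vv _ _
      rw [mul_add, add_mul, mul_one, Units.mul_inv, conj_vv]
    exact this hx
  have k : ∀ x ∈ P, ∃ y ∈ Q, ∃ z ∈ scalars (Fin 4) F, x = y * z := fun x hx => by
    rcases (Subgroup.Normal.map (inferInstance : N.Normal) (QuotientGroup.mk' _)
      (QuotientGroup.mk'_surjective ((scalars (Fin 4) F).subgroupOf P))).eq_bot_or_eq_top with e | e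
    · have : QuotientGroup.mk' ((scalars (Fin 4) F).subgroupOf P) ⟨_, a.mem⟩ = 1 :=
        Subgroup.mem_bot.1 (e ▸ ⟨_, Subgroup.subset_normalClosure rfl, rfl⟩)
      obtain ⟨c, e'⟩ := (mem_scalars_iff _).1
        (Subgroup.mem_subgroupOf.1 ((QuotientGroup.eq_one_iff _).1 this))
      exact absurd e' (tv_not_sc a.1 hv hφ c)
    · obtain ⟨y, hy, e⟩ := e ▸ Subgroup.mem_top (QuotientGroup.mk' ((scalars (Fin 4) F).subgroupOf P) ⟨x, hx⟩)
      exact ⟨y, hN y hy, _, Subgroup.mem_subgroupOf.1 (QuotientGroup.eq.1 e), by simp⟩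
  rw [← hp, Subgroup.commutator_le]
  intro x hx x' hx'
  obtain ⟨y, hy, z, hz, rfl⟩ := k x hx
  obtain ⟨y', hy', z', hz', rfl⟩ := k x' hx'
  have e : ⁅y * z, y' * z'⁆ = ⁅y, y'⁆ := by
    have c : ∀ g, Commute z g := H7.scalars_comm hz
    have c' : ∀ g, Commute z' g := H7.scalars_comm hz'
    simp only [commutatorElement_def, _root_.mul_inv_rev]
    rw [show y * z * (y' * z') * (z⁻¹ * y⁻¹) * (z'⁻¹ * y'⁻¹) =
      y * (z * (y' * z') * z⁻¹) * y⁻¹ * z'⁻¹ * y'⁻¹ by group, (c _).eq, mul_inv_cancel_right,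
      show y * (y' * z') * y⁻¹ * z'⁻¹ * y'⁻¹ = y * y' * (z' * y⁻¹ * z'⁻¹) * y'⁻¹ by group, (c' _).eq,
      mul_inv_cancel_right]
  rw [e, commutatorElement_def]
  exact Q.mul_mem (Q.mul_mem (Q.mul_mem hy hy') (Q.inv_mem hy)) (Q.inv_mem hy')

lemma hy_of_core (hc : IsResidualCore H P) (ht : ∃ v φ, v ≠ 0 ∧ φ ≠ 0 ∧ HT P v φ) : Hy P :=
  ⟨fun g hg => congrArg Units.val (det_of_perfect hc.perfect hg), irr_of_acts hc.absIrred.1,
    fun _ _ => gen_of_simple hc.perfect hc.simple, ht⟩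

variable [Finite F]

lemma htr_of_core (hc : IsResidualCore H P) (S : Subfield F) (h : ∀ g ∈ P, (g : M4 F).trace ∈ S) :
    S = ⊤ :=
  by_contra fun e => hc.no_subfield S e ((H7.absIrr_iff.2 hc.absIrred).realisableOver S h)

theorem core (hy : Hy P) (hp : ⁅P, P⁆ = P)
    (htr : ∀ S : Subfield F, (∀ g ∈ P, (g : M4 F).trace ∈ S) → S = ⊤) :
    specialLinear (Fin 4) F ≤ P ∨ Symp P ∨ ∃ k, KS P k ∧ AO P ∧ Unit P ∧ k ≠ ⊤ ∧
      ∀ x : F, (x ^ Nat.card k) ^ Nat.card k = x := by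
  rcases hy.KS_or with ⟨k, hk⟩ | ⟨t, v, φ, w, ψ, h1, h2, z0, z1⟩
  · by_cases ho : AO P
    · exact Or.inr ((hy.ao_case htr hk ho).imp_right fun h => ⟨k, hk, ho, h⟩)
    · exact Or.inl (hy.sl_case htr hk ho)
  · exact Or.inr (Or.inl (two_case hy hp t h1 h2 z0 z1))

/-- a residual core in dimension four containing a transvection: linear version -/
theorem tv4_lin (hc : IsResidualCore H P) (ht : ∃ v φ, v ≠ 0 ∧ φ ≠ 0 ∧ HT P v φ) :
    specialLinear (Fin 4) F ≤ P ∨ (∃ f, IsSymplecticForm f ∧ FixesForm (matrixSet P) f) ∨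
      ∃ (σ : F ≃+* F) (f : V4 F → V4 F → F), IsUnitaryForm σ f ∧ FixesForm (matrixSet P) f :=
  (core (hy_of_core hc ht) hc.perfect (htr_of_core hc)).imp_right
    (Or.imp_right fun ⟨_, h⟩ => h.2.2.1)

end Cfsg.Agent.H4.TV
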